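import Mathlib
import Cfsg.Prelude.Def_FischerSpaces

set_option autoImplicit false

namespace Cfsg.Agent.Lib.Helper71.Fischer

open Cfsg Cfsg.LineSystem

variable {G : Type*} [Group G] {D : Set G}

/-- Packaged basic properties of a conjugation-closed set of 3-transpositions. -/
structure TD (D : Set G) : Prop where
  sq : ∀ d ∈ D, d * d = 1
  three : ∀ d ∈ D, ∀ e ∈ D, ¬ Commute d e → (d * e) ^ 3 = 1
  conj : ∀ g : G, ∀ d ∈ D, g * d * g⁻¹ ∈ D

theorem TD.of (h : IsThreeTranspositionGroup D) : TD D := by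
  obtain ⟨⟨h2, h3⟩, hc, -⟩ := h
  have hsq : ∀ d ∈ D, d * d = 1 := by
    intro d hd
    have := pow_orderOf_eq_one d
    rw [h2 d hd, pow_two] at this
    exact this
  refine ⟨hsq, ?_, hc⟩
  intro d hd e he hnc
  rcases h3 d hd e he with h | h
  · exfalso
    apply hnc
    have h1 : d * e * (d * e) = 1 := by rw [← pow_two]; exact h
    have hd' : d⁻¹ = d := inv_eq_of_mul_eq_one_left (hsq d hd)
    have he' : e⁻¹ = e := inv_eq_of_mul_eq_one_left (hsq e he)
    have h2' : d * e = (d * e)⁻¹ := eq_inv_of_mul_eq_one_left h1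
    rw [mul_inv_rev, hd', he'] at h2'
    exact h2'
  · exact h

theorem TD.inv (h : TD D) {d : G} (hd : d ∈ D) : d⁻¹ = d :=
  inv_eq_of_mul_eq_one_left (h.sq d hd)

theorem TD.braid (h : TD D) {x y : G} (hx : x ∈ D) (hy : y ∈ D) (hnc : ¬ Commute x y) :
    y * x * y⁻¹ = x * y * x⁻¹ := by
  have h3 := h.three x hx y hy hnc
  rw [h.inv hx, h.inv hy]
  have h1 : (x * y * x) * (y * x * y) = 1 := by
    have : (x * y) ^ 3 = (x * y * x) * (y * x * y) := by
      simp [pow_succ, mul_assoc]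
    rw [← this]; exact h3
  have h2 : y * x * y = (x * y * x)⁻¹ := eq_inv_of_mul_eq_one_right h1
  rw [h2]
  simp [mul_assoc, h.inv hx, h.inv hy]

/-- `w` is the third transposition of the `S₃` generated by the non-commuting `x, y ∈ D`. -/
def Tri (D : Set G) (x y w : G) : Prop := x ∈ D ∧ y ∈ D ∧ ¬ Commute x y ∧ w = y * x * y⁻¹

theorem Tri.mem3 (hD : TD D) {x y w : G} (h : Tri D x y w) : w ∈ D := by
  obtain ⟨hx, hy, -, rfl⟩ := h
  exact hD.conj y x hx

theorem Tri.swap12 (hD : TD D) {x y w : G} (h : Tri D x y w) : Tri D y x w := by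
  obtain ⟨hx, hy, hnc, rfl⟩ := h
  exact ⟨hy, hx, fun hc => hnc hc.symm, hD.braid hx hy hnc⟩

theorem Tri.swap23 (hD : TD D) {x y w : G} (h : Tri D x y w) : Tri D x w y := by
  have hw := h.mem3 hD
  obtain ⟨hx, hy, hnc, rfl⟩ := h
  have hx2 := hD.sq x hx
  have hy2 := hD.sq y hy
  have hxi := hD.inv hx
  have hyi := hD.inv hy
  have hbr := hD.braid hx hy hnc
  rw [hxi, hyi] at hbr
  have hx2' : ∀ g, x * (x * g) = g := fun g => by rw [← mul_assoc, hx2, one_mul]
  have hy2' : ∀ g, y * (y * g) = g := fun g => by rw [← mul_assoc, hy2, one_mul]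
  have hbr' : ∀ g, y * (x * (y * g)) = x * (y * (x * g)) := fun g => by
    have := congrArg (· * g) hbr
    simpa only [mul_assoc] using this
  have e1 : x * (y * x * y⁻¹) * x⁻¹ = y := by
    rw [hyi, hxi, hbr]
    simp only [mul_assoc, hx2', hx2, mul_one]
  refine ⟨hx, hw, ?_, ?_⟩
  · intro hc
    apply hnc
    have : x * (y * x * y⁻¹) * x⁻¹ = y * x * y⁻¹ := by
      rw [hc.eq]; simp
    rw [e1, hyi] at this
    -- y = y x y
    have h2 : y * 1 = y * (x * y) := by
      rw [mul_one, ← mul_assoc]; exact this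
    have h3 : x * y = 1 := (mul_left_cancel h2).symm
    have : x = y := by
      have := eq_inv_of_mul_eq_one_left h3
      rw [hyi] at this; exact this
    rw [this]
  · rw [hD.inv hw, hyi, hbr]
    simp only [mul_assoc, hx2', hbr', hx2, mul_one]

/-- The line `{x, y, w}` as a set of points of `D`. -/
def Tset (D : Set G) (x y w : G) : Set D := {z : D | (z : G) = x ∨ (z : G) = y ∨ (z : G) = w}

theorem Tset_swap12 (x y w : G) : Tset D x y w = Tset D y x w := by
  ext z; simp only [Tset, Set.mem_ofPred_eq]; tauto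

theorem Tset_swap23 (x y w : G) : Tset D x y w = Tset D x w y := by
  ext z; simp only [Tset, Set.mem_ofPred_eq]; tauto

theorem mem_lines {l : Set D} :
    l ∈ threeTranspositionLines D ↔ ∃ x y w, Tri D x y w ∧ l = Tset D x y w := by
  constructor
  · rintro ⟨x, y, hnc, rfl⟩
    exact ⟨x, y, _, ⟨x.2, y.2, hnc, rfl⟩, rfl⟩
  · rintro ⟨x, y, w, ⟨hx, hy, hnc, rfl⟩, rfl⟩
    exact ⟨⟨x, hx⟩, ⟨y, hy⟩, hnc, rfl⟩

theorem Tri.ne12 {x y w : G} (h : Tri D x y w) : x ≠ y := by
  rintro rfl; exact h.2.2.1 (Commute.refl x)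

theorem Tri.ne13 (hD : TD D) {x y w : G} (h : Tri D x y w) : x ≠ w := (h.swap23 hD).ne12

theorem Tri.ne23 (hD : TD D) {x y w : G} (h : Tri D x y w) : y ≠ w := ((h.swap12 hD).swap23 hD).ne12

/-- Any two distinct points of a line determine it. -/
theorem line_of_two (hD : TD D) {x y w : G} (h : Tri D x y w) {u v : D}
    (hu : u ∈ Tset D x y w) (hv : v ∈ Tset D x y w) (huv : u ≠ v) :
    ∃ w', Tri D (u : G) (v : G) w' ∧ Tset D (u : G) (v : G) w' = Tset D x y w := by
  have hne : (u : G) ≠ (v : G) := fun e => huv (Subtype.ext e)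
  rcases hu with hu | hu | hu <;> rcases hv with hv | hv | hv
  · exact absurd (hu.trans hv.symm) hne
  · exact ⟨w, by rw [hu, hv]; exact h, by rw [hu, hv]⟩
  · exact ⟨y, by rw [hu, hv]; exact h.swap23 hD, by rw [hu, hv, Tset_swap23]⟩
  · exact ⟨w, by rw [hu, hv]; exact h.swap12 hD, by rw [hu, hv, Tset_swap12]⟩
  · exact absurd (hu.trans hv.symm) hne
  · exact ⟨x, by rw [hu, hv]; exact (h.swap12 hD).swap23 hD,
      by rw [hu, hv, Tset_swap23, Tset_swap12]⟩
  · exact ⟨y, by rw [hu, hv]; exact (h.swap23 hD).swap12 hD,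
      by rw [hu, hv, Tset_swap12, Tset_swap23]⟩
  · exact ⟨x, by rw [hu, hv]; exact ((h.swap23 hD).swap12 hD).swap23 hD,
      by rw [hu, hv, Tset_swap23, Tset_swap12, Tset_swap23]⟩
  · exact absurd (hu.trans hv.symm) hne

theorem tset_mem_lines {x y w : G} (h : Tri D x y w) : Tset D x y w ∈ threeTranspositionLines D :=
  mem_lines.2 ⟨x, y, w, h, rfl⟩

theorem isPartialLinear (hD : TD D) : IsPartialLinear (threeTranspositionLines D) := by
  intro l hl m hm p q hpq hpl hql hpm hqm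
  obtain ⟨x, y, w, h, rfl⟩ := mem_lines.1 hl
  obtain ⟨x', y', w', h', rfl⟩ := mem_lines.1 hm
  obtain ⟨r, hr, e⟩ := line_of_two hD h hpl hql hpq
  obtain ⟨r', hr', e'⟩ := line_of_two hD h' hpm hqm hpq
  rw [← e, ← e']
  have : r = r' := by rw [hr.2.2.2, hr'.2.2.2]
  rw [this]

theorem ncard_line (hD : TD D) {l : Set D} (hl : l ∈ threeTranspositionLines D) : l.ncard = 3 := by
  obtain ⟨x, y, w, h, rfl⟩ := mem_lines.1 hl
  rw [Set.ncard_eq_three]
  refine ⟨⟨x, h.1⟩, ⟨y, h.2.1⟩, ⟨w, h.mem3 hD⟩, ?_, ?_, ?_, ?_⟩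
  · intro e; exact h.ne12 (congrArg Subtype.val e)
  · intro e; exact h.ne13 hD (congrArg Subtype.val e)
  · intro e; exact h.ne23 hD (congrArg Subtype.val e)
  · ext z
    simp only [Tset, Set.mem_ofPred_eq, Set.mem_insert_iff, Set.mem_singleton_iff, Subtype.ext_iff]

/-! ### spans -/

theorem subset_span (L : Set (Set D)) (S : Set D) : S ⊆ span L S := by
  intro x hx
  simp only [span, Set.mem_sInter, Set.mem_ofPred_eq]
  intro T hT
  exact hT.1 hx

theorem span_subset {L : Set (Set D)} {S T : Set D} (hST : S ⊆ T) (hT : IsSubspace L T) :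
    span L S ⊆ T := by
  intro x hx
  simp only [span, Set.mem_sInter, Set.mem_ofPred_eq] at hx
  exact hx T ⟨hST, hT⟩

theorem span_closed {S : Set D} {u v w : G} (h : Tri D u v w) (hu : u ∈ D) (hv : v ∈ D) (hw : w ∈ D)
    (hus : (⟨u, hu⟩ : D) ∈ span (threeTranspositionLines D) S)
    (hvs : (⟨v, hv⟩ : D) ∈ span (threeTranspositionLines D) S) :
    (⟨w, hw⟩ : D) ∈ span (threeTranspositionLines D) S := by
  simp only [span, Set.mem_sInter, Set.mem_ofPred_eq] at hus hvs ⊢
  intro T hT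
  have hne : (⟨u, hu⟩ : D) ≠ ⟨v, hv⟩ := fun e => h.ne12 (congrArg Subtype.val e)
  exact hT.2 _ (tset_mem_lines h) _ (hus T hT) _ (hvs T hT) hne (Or.inl rfl) (Or.inr (Or.inl rfl))
    (Or.inr (Or.inr rfl))

theorem image_line (hD : TD D) {P : Type*} (φ : P → D) {p q r : P} :
    φ '' ({p, q, r} : Set P) = Tset D (φ p : G) (φ q) (φ r) := by
  ext z
  simp only [Set.image_insert_eq, Set.image_singleton, Set.mem_insert_iff, Set.mem_singleton_iff,
    Tset, Set.mem_ofPred_eq, Subtype.ext_iff]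

/-- Generic recognition lemma: a model line system `M` on `P` together with a map `φ : P → D`
matching lines with `S₃`-triples and non-collinear pairs with commuting pairs gives an isomorphism
of the subspace spanned by `S0` with the model. -/
theorem iso_of_model (hD : TD D) {P : Type*} (M : Set (Set P)) (φ : P → D) (S0 : Set D)
    (hL1 : ∀ μ ∈ M, ∃ p q r, μ = {p, q, r} ∧ Tri D (φ p : G) (φ q) (φ r))
    (hL2 : ∀ p q, p ≠ q → (∃ μ ∈ M, p ∈ μ ∧ q ∈ μ) ∨ (Commute (φ p : G) (φ q) ∧ φ p ≠ φ q))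
    (hsub : S0 ⊆ Set.range φ) (hgen : ∀ p, φ p ∈ span (threeTranspositionLines D) S0) :
    Isomorphic (restrict (threeTranspositionLines D) (span (threeTranspositionLines D) S0)) M := by
  have hinj : Function.Injective φ := by
    intro p q h
    by_contra hne
    rcases hL2 p q hne with ⟨μ, hμ, hp, hq⟩ | ⟨-, hn⟩
    · obtain ⟨p', q', r', rfl, ht⟩ := hL1 μ hμ
      have h12 := ht.ne12
      have h13 := ht.ne13 hD
      have h23 := ht.ne23 hD
      simp only [Set.mem_insert_iff, Set.mem_singleton_iff] at hp hq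
      have hv := congrArg Subtype.val h
      rcases hp with hp | hp | hp <;> rcases hq with hq | hq | hq <;> rw [hp, hq] at hv <;>
        first
        | exact hne (hp.trans hq.symm)
        | exact h12 hv
        | exact h13 hv
        | exact h23 hv
        | exact h12 hv.symm
        | exact h13 hv.symm
        | exact h23 hv.symm
    · exact hn h
  have key : ∀ l ∈ threeTranspositionLines D, ∀ p q, p ≠ q → φ p ∈ l → φ q ∈ l →
      ∃ μ ∈ M, l = φ '' μ := by
    intro l hl p q hpq hp hq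
    obtain ⟨x, y, w, h, rfl⟩ := mem_lines.1 hl
    obtain ⟨w', hw', -⟩ := line_of_two hD h hp hq (hinj.ne hpq)
    rcases hL2 p q hpq with ⟨μ, hμ, hpμ, hqμ⟩ | ⟨hc, -⟩
    · refine ⟨μ, hμ, ?_⟩
      obtain ⟨p', q', r', rfl, ht⟩ := hL1 μ hμ
      have hl' : φ '' ({p', q', r'} : Set P) ∈ threeTranspositionLines D := by
        rw [image_line hD]; exact tset_mem_lines ht
      exact isPartialLinear hD _ hl _ hl' (φ p) (φ q) (hinj.ne hpq) hp hq
        (Set.mem_image_of_mem φ hpμ) (Set.mem_image_of_mem φ hqμ)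
    · exact absurd hc hw'.2.2.1
  have hsubsp : IsSubspace (threeTranspositionLines D) (Set.range φ) := by
    rintro l hl _ ⟨p, rfl⟩ _ ⟨q, rfl⟩ hne hp hq
    have hpq : p ≠ q := fun e => hne (by rw [e])
    obtain ⟨μ, -, rfl⟩ := key l hl p q hpq hp hq
    exact Set.image_subset_range φ μ
  have hspan : span (threeTranspositionLines D) S0 = Set.range φ := by
    apply Set.Subset.antisymm
    · exact span_subset hsub hsubsp
    · rintro _ ⟨p, rfl⟩; exact hgen p
  let e : ↥(span (threeTranspositionLines D) S0) ≃ P :=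
    (Equiv.setCongr hspan).trans (Equiv.ofInjective φ hinj).symm
  have he : ∀ x : ↥(span (threeTranspositionLines D) S0), φ (e x) = x.1 := by
    intro x
    simp only [e, Equiv.trans_apply]
    exact Subtype.ext (congrArg Subtype.val
      (Equiv.apply_ofInjective_symm hinj (Equiv.setCongr hspan x)))
  refine ⟨e, ?_⟩
  intro s
  constructor
  · rintro ⟨l, hl, hls, rfl⟩
    obtain ⟨x, y, w, h, rfl⟩ := mem_lines.1 hl
    have hx : (⟨x, h.1⟩ : D) ∈ Tset D x y w := Or.inl rfl
    have hy : (⟨y, h.2.1⟩ : D) ∈ Tset D x y w := Or.inr (Or.inl rfl)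
    obtain ⟨p, hp⟩ : (⟨x, h.1⟩ : D) ∈ Set.range φ := hspan ▸ hls hx
    obtain ⟨q, hq⟩ : (⟨y, h.2.1⟩ : D) ∈ Set.range φ := hspan ▸ hls hy
    have hpq : p ≠ q := by
      rintro rfl
      exact h.ne12 (congrArg Subtype.val (hp.symm.trans hq))
    obtain ⟨μ, hμ, hlμ⟩ := key _ hl p q hpq (hp ▸ hx) (hq ▸ hy)
    have : e '' {z : ↥(span (threeTranspositionLines D) S0) | (z : D) ∈ Tset D x y w} = μ := by
      rw [hlμ]
      ext p0
      constructor
      · rintro ⟨z, ⟨p1, hp1, e1⟩, rfl⟩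
        have : e z = p1 := hinj ((he z).trans e1.symm)
        rw [this]; exact hp1
      · intro hp0
        refine ⟨⟨φ p0, hspan ▸ Set.mem_range_self p0⟩, ⟨p0, hp0, rfl⟩, ?_⟩
        exact hinj (he _)
    rw [this]; exact hμ
  · intro h
    obtain ⟨p, q, r, hμ, ht⟩ := hL1 _ h
    refine ⟨φ '' (e '' s), ?_, ?_, ?_⟩
    · rw [hμ, image_line hD]; exact tset_mem_lines ht
    · have h1 : φ '' (e '' s) ⊆ Set.range φ := Set.image_subset_range φ _
      intro z hz
      have h2 : z ∈ Set.range φ := h1 hz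
      rw [← hspan] at h2
      exact h2
    · ext x
      constructor
      · intro hx
        exact ⟨e x, ⟨x, hx, rfl⟩, he x⟩
      · rintro ⟨p1, ⟨x1, hx1, rfl⟩, e1⟩
        have : x1 = x := Subtype.ext ((he x1).symm.trans e1)
        rw [← this]; exact hx1

end Cfsg.Agent.Lib.Helper71.Fischer
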