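import Mathlib
import Cfsg.Prelude.Def_FischerSpaces
import Cfsg.Agent.Lib.Helper71.FischerBase

set_option autoImplicit false

namespace Cfsg.Agent.Lib.Helper71.Fischer

open Cfsg Cfsg.LineSystem

variable {G : Type*} [Group G] {D : Set G}

/-! ### exponent-three algebra -/

theorem comm_conj_of_exp3 {u v : G} (hv : v ^ 3 = 1) (huv : (u * v) ^ 3 = 1)
    (huv' : (u * v⁻¹) ^ 3 = 1) : Commute u (v * u * v⁻¹) := by
  have h1 : u * v * u = v⁻¹ * u⁻¹ * v⁻¹ := by
    have e : (u * v) ^ 3 = (u * v * u) * (v * u * v) := by simp [pow_succ, mul_assoc]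
    rw [e] at huv
    rw [eq_inv_of_mul_eq_one_left huv]; simp [mul_assoc]
  have h2 : u * v⁻¹ * u = v * u⁻¹ * v := by
    have e : (u * v⁻¹) ^ 3 = (u * v⁻¹ * u) * (v⁻¹ * u * v⁻¹) := by simp [pow_succ, mul_assoc]
    rw [e] at huv'
    rw [eq_inv_of_mul_eq_one_left huv']; simp [mul_assoc]
  have hv2' : v * v = v⁻¹ := by
    have e : v ^ 3 = v * v * v := by simp [pow_succ]
    rw [e] at hv
    exact eq_inv_of_mul_eq_one_left hv
  have hv2 : v⁻¹ * v⁻¹ = v := by
    rw [← mul_inv_rev, hv2', inv_inv]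
  show u * (v * u * v⁻¹) = (v * u * v⁻¹) * u
  calc u * (v * u * v⁻¹) = (u * v * u) * v⁻¹ := by group
    _ = v⁻¹ * u⁻¹ * v⁻¹ * v⁻¹ := by rw [h1]
    _ = v⁻¹ * u⁻¹ * (v⁻¹ * v⁻¹) := by group
    _ = v⁻¹ * u⁻¹ * v := by rw [hv2]
    _ = (v * v) * u⁻¹ * v := by rw [hv2']
    _ = v * (v * u⁻¹ * v) := by group
    _ = v * (u * v⁻¹ * u) := by rw [h2]
    _ = (v * u * v⁻¹) * u := by group

/-- the commutator -/
def cmm (x y : G) : G := x * y * x⁻¹ * y⁻¹

/-- Relations of the group of exponent three on two generators. -/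
structure Heis3 (u v : G) : Prop where
  hu : u ^ 3 = 1
  hv : v ^ 3 = 1
  huv : (u * v) ^ 3 = 1
  huv' : (u * v⁻¹) ^ 3 = 1

theorem Heis3.symm {u v : G} (h : Heis3 u v) : Heis3 v u := by
  refine ⟨h.hv, h.hu, ?_, ?_⟩
  · have e : v * u = u⁻¹ * (u * v) * u⁻¹⁻¹ := by group
    rw [e, conj_pow, h.huv]; simp
  · have e : v * u⁻¹ = (u * v⁻¹)⁻¹ := by group
    rw [e, inv_pow, h.huv']; simp

theorem Heis3.comm_u {u v : G} (h : Heis3 u v) : Commute (cmm (v) (u)) u := by
  have h1 : Commute u (v * u * v⁻¹) := comm_conj_of_exp3 h.hv h.huv h.huv'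
  have e : (cmm (v) (u)) = (v * u * v⁻¹) * u⁻¹ := rfl
  rw [e]
  exact (h1.symm.mul_left (Commute.refl u).inv_left)

theorem Heis3.comm_v {u v : G} (h : Heis3 u v) : Commute (cmm (v) (u)) v := by
  have h1 : Commute v (u * v * u⁻¹) := comm_conj_of_exp3 h.symm.hv h.symm.huv h.symm.huv'
  have e : (cmm (v) (u)) = v * (u * v * u⁻¹)⁻¹ := by unfold cmm; group
  rw [e]
  exact ((Commute.refl v).mul_left h1.symm.inv_left)

theorem Heis3.comm_a {u v a : G} (h : Heis3 u v) (hau : a * u * a⁻¹ = u⁻¹)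
    (hav : a * v * a⁻¹ = v⁻¹) : Commute a (cmm (v) (u)) := by
  have e1 : a * (cmm (v) (u)) * a⁻¹ = (cmm (a * v * a⁻¹) (a * u * a⁻¹)) := by
    simp only [cmm]; group
  have e2 : (cmm (v⁻¹) (u⁻¹)) = (v⁻¹ * u⁻¹) * (cmm (v) (u)) * (u * v) := by
    simp only [cmm]; group
  have c1 : Commute (v⁻¹ * u⁻¹) (cmm (v) (u)) := (h.comm_v.symm.inv_left).mul_left (h.comm_u.symm.inv_left)
  have e3 : (cmm (v⁻¹) (u⁻¹)) = (cmm (v) (u)) := by
    rw [e2, c1.eq]; group
  rw [hau, hav, e3] at e1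
  have := congrArg (· * a) e1
  simp only [inv_mul_cancel_right] at this
  exact this

theorem Heis3.v_mul_u_pow {u v : G} (h : Heis3 u v) (n : ℕ) :
    v * u ^ n = u ^ n * v * (cmm (v) (u)) ^ n := by
  have hvu : v * u = u * v * (cmm (v) (u)) := by
    have : (cmm (v) (u)) * (u * v) = v * u := by unfold cmm; group
    rw [← this]
    exact ((h.comm_u.mul_right h.comm_v).eq)
  induction n with
  | zero => simp
  | succ n ih =>
    calc v * u ^ (n + 1) = (v * u ^ n) * u := by rw [pow_succ, mul_assoc]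
      _ = u ^ n * v * (cmm (v) (u)) ^ n * u := by rw [ih]
      _ = u ^ n * (v * u) * (cmm (v) (u)) ^ n := by
          rw [mul_assoc (u ^ n * v), ((h.comm_u.pow_left n).eq)]; simp only [mul_assoc]
      _ = u ^ n * (u * v * (cmm (v) (u))) * (cmm (v) (u)) ^ n := by rw [hvu]
      _ = u ^ (n + 1) * v * (cmm (v) (u)) ^ (n + 1) := by
          rw [pow_succ, pow_succ']; simp only [mul_assoc]

theorem pow_val_add {u : G} (hu : u ^ 3 = 1) (i j : ZMod 3) :
    u ^ i.val * u ^ j.val = u ^ (i + j).val := by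
  rw [← pow_add, ZMod.val_add, ← pow_eq_pow_mod _ hu]

theorem pow_val_neg {u : G} (hu : u ^ 3 = 1) (i : ZMod 3) :
    u ^ (-i).val = (u ^ i.val)⁻¹ := by
  apply eq_inv_of_mul_eq_one_left
  rw [pow_val_add hu]; simp

theorem zmod3_cases (i : ZMod 3) : i = 0 ∨ i = 1 ∨ i = 2 := by
  revert i; decide

/-! ### the nine conjugates -/

/-- the coset representatives `u^i v^j` -/
def kk (u v : G) (i j : ZMod 3) : G := u ^ i.val * v ^ j.val

/-- the nine conjugates of `a` -/
def phi9 (u v a : G) (i j : ZMod 3) : G := kk u v i j * a * (kk u v i j)⁻¹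

theorem phi9_zero (u v a : G) : phi9 u v a 0 0 = a := by
  simp [phi9, kk]

theorem phi9_conj_u {u v : G} (a : G) (h : Heis3 u v) (i j : ZMod 3) :
    u * phi9 u v a i j * u⁻¹ = phi9 u v a (i + 1) j := by
  have e : u * kk u v i j = kk u v (i + 1) j := by
    unfold kk
    rw [← mul_assoc]
    congr 1
    have := pow_val_add h.hu 1 i
    rw [add_comm] at this
    rw [← this]
    simp [ZMod.val_one]
  unfold phi9
  rw [← e]; group

theorem phi9_conj_v {u v a : G} (h : Heis3 u v) (hau : a * u * a⁻¹ = u⁻¹)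
    (hav : a * v * a⁻¹ = v⁻¹) (i j : ZMod 3) :
    v * phi9 u v a i j * v⁻¹ = phi9 u v a i (j + 1) := by
  have e : v * kk u v i j = kk u v i (j + 1) * (cmm (v) (u)) ^ i.val := by
    unfold kk
    rw [← mul_assoc, h.v_mul_u_pow]
    have h1 := pow_val_add h.hv 1 j
    rw [add_comm] at h1
    rw [← h1]
    simp only [ZMod.val_one, pow_one]
    have c : Commute ((cmm (v) (u)) ^ i.val) (v ^ j.val) := (h.comm_v.pow_left _).pow_right _
    rw [mul_assoc (u ^ i.val * v), c.eq]; simp only [mul_assoc]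
  have ca : Commute ((cmm (v) (u)) ^ i.val) a := ((h.comm_a hau hav).symm.pow_left _)
  have e2 : v * phi9 u v a i j * v⁻¹ = (v * kk u v i j) * a * (v * kk u v i j)⁻¹ := by
    unfold phi9; group
  rw [e2, e]
  unfold phi9
  have : kk u v i (j + 1) * (cmm (v) (u)) ^ i.val * a * (kk u v i (j + 1) * (cmm (v) (u)) ^ i.val)⁻¹ =
      kk u v i (j + 1) * ((cmm (v) (u)) ^ i.val * a * ((cmm (v) (u)) ^ i.val)⁻¹) * (kk u v i (j + 1))⁻¹ := by
    group
  rw [this, ca.eq]; simp

theorem phi9_conj_u_pow {u v : G} (a : G) (h : Heis3 u v) (n : ℕ) (i j : ZMod 3) :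
    u ^ n * phi9 u v a i j * (u ^ n)⁻¹ = phi9 u v a (i + n) j := by
  induction n with
  | zero => simp
  | succ n ih =>
    have : u ^ (n + 1) * phi9 u v a i j * (u ^ (n + 1))⁻¹ =
        u * (u ^ n * phi9 u v a i j * (u ^ n)⁻¹) * u⁻¹ := by
      rw [pow_succ']; group
    rw [this, ih, phi9_conj_u a h]
    congr 1
    push_cast; ring

theorem phi9_conj_v_pow {u v a : G} (h : Heis3 u v) (hau : a * u * a⁻¹ = u⁻¹)
    (hav : a * v * a⁻¹ = v⁻¹) (n : ℕ) (i j : ZMod 3) :
    v ^ n * phi9 u v a i j * (v ^ n)⁻¹ = phi9 u v a i (j + n) := by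
  induction n with
  | zero => simp
  | succ n ih =>
    have : v ^ (n + 1) * phi9 u v a i j * (v ^ (n + 1))⁻¹ =
        v * (v ^ n * phi9 u v a i j * (v ^ n)⁻¹) * v⁻¹ := by
      rw [pow_succ']; group
    rw [this, ih, phi9_conj_v h hau hav]
    congr 1
    push_cast; ring

/-- translation property -/
theorem phi9_translate {u v a : G} (h : Heis3 u v) (hau : a * u * a⁻¹ = u⁻¹)
    (hav : a * v * a⁻¹ = v⁻¹) (i j i' j' : ZMod 3) :
    kk u v i j * phi9 u v a i' j' * (kk u v i j)⁻¹ = phi9 u v a (i' + i) (j' + j) := by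
  have : kk u v i j * phi9 u v a i' j' * (kk u v i j)⁻¹ =
      u ^ i.val * (v ^ j.val * phi9 u v a i' j' * (v ^ j.val)⁻¹) * (u ^ i.val)⁻¹ := by
    unfold kk; group
  rw [this, phi9_conj_v_pow h hau hav, phi9_conj_u_pow a h]
  simp

theorem phi9_conj_a {u v a : G} (h : Heis3 u v) (hau : a * u * a⁻¹ = u⁻¹)
    (hav : a * v * a⁻¹ = v⁻¹) (i j : ZMod 3) :
    a * phi9 u v a i j * a⁻¹ = phi9 u v a (-i) (-j) := by
  have e : a * kk u v i j * a⁻¹ = kk u v (-i) (-j) := by
    unfold kk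
    rw [pow_val_neg h.hu, pow_val_neg h.hv]
    have : a * (u ^ i.val * v ^ j.val) * a⁻¹ = (a * u * a⁻¹) ^ i.val * (a * v * a⁻¹) ^ j.val := by
      rw [conj_pow, conj_pow]; group
    rw [this, hau, hav, inv_pow, inv_pow]
  have e2 : a * phi9 u v a i j * a⁻¹ =
      (a * kk u v i j * a⁻¹) * a * (a * kk u v i j * a⁻¹)⁻¹ := by
    unfold phi9; group
  rw [e2, e]
  rfl

theorem affine_case (hD : TD D) {a b c : G} (ha : a ∈ D) (hb : b ∈ D) (hc : c ∈ D)
    (hab : ¬ Commute a b) (hac : ¬ Commute a c) (hbc : ¬ Commute b c)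
    (hxc : ¬ Commute (b * a * b⁻¹) c) :
    Isomorphic (restrict (threeTranspositionLines D)
      (span (threeTranspositionLines D)
        (Tset D a b (b * a * b⁻¹) ∪ Tset D a c (c * a * c⁻¹)))) affinePlaneThree := by
  have hai := hD.inv ha
  have hbi := hD.inv hb
  have hci := hD.inv hc
  have ha2 := hD.sq a ha
  have ha2' : ∀ g, a * (a * g) = g := fun g => by rw [← mul_assoc, ha2, one_mul]
  have bx : b * a * b⁻¹ = a * b * a⁻¹ := hD.braid ha hb hab
  have by' : c * a * c⁻¹ = a * c * a⁻¹ := hD.braid ha hc hac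
  have hx : b * a * b⁻¹ ∈ D := hD.conj b a ha
  have hy : c * a * c⁻¹ ∈ D := hD.conj c a ha
  have hau : a * (a * b) * a⁻¹ = (a * b)⁻¹ := by
    rw [mul_inv_rev, hbi, hai, ← mul_assoc, ha2, one_mul]
  have hav : a * (a * c) * a⁻¹ = (a * c)⁻¹ := by
    rw [mul_inv_rev, hci, hai, ← mul_assoc, ha2, one_mul]
  have H : Heis3 (a * b) (a * c) := by
    refine ⟨hD.three a ha b hb hab, hD.three a ha c hc hac, ?_, ?_⟩
    · have e : a * b * (a * c) = (b * a * b⁻¹) * c := by
        rw [bx, hai]; simp only [mul_assoc]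
      rw [e]; exact hD.three _ hx c hc hxc
    · have e : a * b * (a * c)⁻¹ = a * (b * c) * a⁻¹ := by
        rw [mul_inv_rev, hci]; simp only [mul_assoc]
      rw [e, conj_pow, hD.three b hb c hc hbc]; simp
  obtain ⟨u, hu⟩ : ∃ u, u = a * b := ⟨_, rfl⟩
  obtain ⟨v, hv⟩ : ∃ v, v = a * c := ⟨_, rfl⟩
  rw [← hu] at hau H
  rw [← hv] at hav H
  have n0 : (-0 : ZMod 3) = 0 := by decide
  have n1 : (-1 : ZMod 3) = 2 := by decide
  have n2 : (-2 : ZMod 3) = 1 := by decide
  have p00 : phi9 u v a 0 0 = a := phi9_zero u v a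
  have p10 : phi9 u v a 1 0 = b := by
    have := phi9_conj_u a H 0 0
    rw [phi9_zero, zero_add] at this
    rw [← this, hu]
    have e : a * b * a * (a * b)⁻¹ = a * (b * a * b⁻¹) * a⁻¹ := by group
    rw [e, bx, show a * (a * b * a⁻¹) * a⁻¹ = (a * a) * b * (a * a)⁻¹ by group, ha2]; simp
  have p01 : phi9 u v a 0 1 = c := by
    have := phi9_conj_v H hau hav 0 0
    rw [phi9_zero, zero_add] at this
    rw [← this, hv]
    have e : a * c * a * (a * c)⁻¹ = a * (c * a * c⁻¹) * a⁻¹ := by group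
    rw [e, by', show a * (a * c * a⁻¹) * a⁻¹ = (a * a) * c * (a * a)⁻¹ by group, ha2]; simp
  have p20 : phi9 u v a 2 0 = b * a * b⁻¹ := by
    have := phi9_conj_a H hau hav 1 0
    rw [n1, n0, p10] at this
    rw [← this, bx]
  have p02 : phi9 u v a 0 2 = c * a * c⁻¹ := by
    have := phi9_conj_a H hau hav 0 1
    rw [n1, n0, p01] at this
    rw [← this, by']
  have p11 : phi9 u v a 1 1 = u * c * u⁻¹ := by
    have := phi9_conj_u a H 0 1
    rw [p01, zero_add] at this
    exact this.symm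
  have p12 : phi9 u v a 1 2 = u * (c * a * c⁻¹) * u⁻¹ := by
    have := phi9_conj_u a H 0 2
    rw [p02, zero_add] at this
    exact this.symm
  have eux : u⁻¹ * a * u = b * a * b⁻¹ := by
    rw [hu, mul_inv_rev, hbi, hai]
    simp only [mul_assoc, ha2']
  have hs : ∀ i j, Commute a (phi9 u v a (-i) (-j)) → Commute a (phi9 u v a i j) := by
    intro i j h
    rw [← phi9_conj_a H hau hav] at h
    have := (Commute.conj_iff a⁻¹).2 h
    simpa [mul_assoc] using this
  have n11 : ¬ Commute a (phi9 u v a 1 1) := by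
    rw [p11]
    intro h
    apply hxc
    have := (Commute.conj_iff u⁻¹).2 h
    rw [inv_inv, eux] at this
    simpa [mul_assoc] using this
  have n12 : ¬ Commute a (phi9 u v a 1 2) := by
    rw [p12]
    intro h
    apply hbc
    have h1 := (Commute.conj_iff u⁻¹).2 h
    rw [inv_inv, eux] at h1
    have h2 : Commute (b * a * b⁻¹) (c * a * c⁻¹) := by simpa [mul_assoc] using h1
    rw [bx, by'] at h2
    exact (Commute.conj_iff a).1 h2
  have B1 : ∀ i j : ZMod 3, (i ≠ 0 ∨ j ≠ 0) → ¬ Commute a (phi9 u v a i j) := by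
    intro i j hij
    rcases zmod3_cases i with rfl | rfl | rfl <;> rcases zmod3_cases j with rfl | rfl | rfl
    · rcases hij with h | h <;> exact absurd rfl h
    · rw [p01]; exact hac
    · intro h; apply hac; rw [← p01]; apply hs; rw [n0, n1]; exact h
    · rw [p10]; exact hab
    · exact n11
    · exact n12
    · intro h; apply hab; rw [← p10]; apply hs; rw [n0, n1]; exact h
    · intro h; apply n12; apply hs; rw [n1, n2]; exact h
    · intro h; apply n11; apply hs; rw [n1]; exact h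
  have hmem : ∀ i j, phi9 u v a i j ∈ D := fun i j => hD.conj _ a ha
  have C1 : ∀ i j i' j' : ZMod 3, (i' ≠ 0 ∨ j' ≠ 0) →
      Tri D (phi9 u v a i j) (phi9 u v a (i + i') (j + j')) (phi9 u v a (i - i') (j - j')) := by
    intro i j i' j' hij
    have hX := hmem i' j'
    have hB := B1 i' j' hij
    have e1 : phi9 u v a (i + i') (j + j') =
        kk u v i j * phi9 u v a i' j' * (kk u v i j)⁻¹ := by
      rw [phi9_translate H hau hav, add_comm i' i, add_comm j' j]
    have e2 : phi9 u v a (i - i') (j - j') =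
        kk u v i j * (a * phi9 u v a i' j' * a⁻¹) * (kk u v i j)⁻¹ := by
      rw [phi9_conj_a H hau hav, phi9_translate H hau hav]
      congr 1 <;> ring
    rw [e1, e2]
    refine ⟨hmem i j, hD.conj _ _ hX, ?_, ?_⟩
    · exact fun h => hB ((Commute.conj_iff (kk u v i j)).1 h)
    · rw [← hD.braid ha hX hB]
      unfold phi9
      group
  let φ : (Fin 2 → ZMod 3) → D := fun p => ⟨phi9 u v a (p 0) (p 1), hmem _ _⟩
  apply iso_of_model hD affinePlaneThree φ
  · rintro _ ⟨p, w, hw, rfl⟩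
    refine ⟨p, p + w, p - w, ?_, ?_⟩
    · ext x
      simp only [Set.mem_ofPred_eq, Set.mem_insert_iff, Set.mem_singleton_iff]
      constructor
      · rintro ⟨t, rfl⟩
        rcases zmod3_cases t with rfl | rfl | rfl
        · left; simp
        · right; left; simp
        · right; right
          have : (2 : ZMod 3) = -1 := by decide
          rw [this]; simp [sub_eq_add_neg]
      · rintro (rfl | rfl | rfl)
        · exact ⟨0, by simp⟩
        · exact ⟨1, by simp⟩
        · refine ⟨2, ?_⟩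
          have : (2 : ZMod 3) = -1 := by decide
          rw [this]; simp [sub_eq_add_neg]
    · have hw' : w 0 ≠ 0 ∨ w 1 ≠ 0 := by
        by_contra hcon
        push Not at hcon
        apply hw
        funext k
        fin_cases k
        · exact hcon.1
        · exact hcon.2
      exact C1 (p 0) (p 1) (w 0) (w 1) hw'
  · intro p q hpq
    left
    refine ⟨{x | ∃ t : ZMod 3, x = p + t • (q - p)}, ⟨p, q - p, sub_ne_zero.2 (Ne.symm hpq), rfl⟩,
      ⟨0, by simp⟩, ⟨1, by simp⟩⟩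
  · rintro z (hz | hz)
    · rcases hz with hz | hz | hz
      · exact ⟨0, Subtype.ext (by show phi9 u v a 0 0 = z; rw [p00]; exact hz.symm)⟩
      · exact ⟨![1, 0], Subtype.ext (by show phi9 u v a 1 0 = z; rw [p10]; exact hz.symm)⟩
      · exact ⟨![2, 0], Subtype.ext (by show phi9 u v a 2 0 = z; rw [p20]; exact hz.symm)⟩
    · rcases hz with hz | hz | hz
      · exact ⟨0, Subtype.ext (by show phi9 u v a 0 0 = z; rw [p00]; exact hz.symm)⟩
      · exact ⟨![0, 1], Subtype.ext (by show phi9 u v a 0 1 = z; rw [p01]; exact hz.symm)⟩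
      · exact ⟨![0, 2], Subtype.ext (by show phi9 u v a 0 2 = z; rw [p02]; exact hz.symm)⟩
  · have sa : (⟨a, ha⟩ : D) ∈ span (threeTranspositionLines D)
        (Tset D a b (b * a * b⁻¹) ∪ Tset D a c (c * a * c⁻¹)) :=
      subset_span _ _ (Or.inl (Or.inl rfl))
    have sb : (⟨b, hb⟩ : D) ∈ span (threeTranspositionLines D)
        (Tset D a b (b * a * b⁻¹) ∪ Tset D a c (c * a * c⁻¹)) :=
      subset_span _ _ (Or.inl (Or.inr (Or.inl rfl)))
    have sx : (⟨_, hx⟩ : D) ∈ span (threeTranspositionLines D)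
        (Tset D a b (b * a * b⁻¹) ∪ Tset D a c (c * a * c⁻¹)) :=
      subset_span _ _ (Or.inl (Or.inr (Or.inr rfl)))
    have sc : (⟨c, hc⟩ : D) ∈ span (threeTranspositionLines D)
        (Tset D a b (b * a * b⁻¹) ∪ Tset D a c (c * a * c⁻¹)) :=
      subset_span _ _ (Or.inr (Or.inr (Or.inl rfl)))
    have sy : (⟨_, hy⟩ : D) ∈ span (threeTranspositionLines D)
        (Tset D a b (b * a * b⁻¹) ∪ Tset D a c (c * a * c⁻¹)) :=
      subset_span _ _ (Or.inr (Or.inr (Or.inr rfl)))
    have s00 : (⟨phi9 u v a 0 0, hmem _ _⟩ : D) ∈ span (threeTranspositionLines D)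
        (Tset D a b (b * a * b⁻¹) ∪ Tset D a c (c * a * c⁻¹)) := by
      have : (⟨phi9 u v a 0 0, hmem _ _⟩ : D) = ⟨a, ha⟩ := Subtype.ext p00
      rw [this]; exact sa
    have s10 : (⟨phi9 u v a 1 0, hmem _ _⟩ : D) ∈ span (threeTranspositionLines D)
        (Tset D a b (b * a * b⁻¹) ∪ Tset D a c (c * a * c⁻¹)) := by
      have : (⟨phi9 u v a 1 0, hmem _ _⟩ : D) = ⟨b, hb⟩ := Subtype.ext p10
      rw [this]; exact sb
    have s01 : (⟨phi9 u v a 0 1, hmem _ _⟩ : D) ∈ span (threeTranspositionLines D)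
        (Tset D a b (b * a * b⁻¹) ∪ Tset D a c (c * a * c⁻¹)) := by
      have : (⟨phi9 u v a 0 1, hmem _ _⟩ : D) = ⟨c, hc⟩ := Subtype.ext p01
      rw [this]; exact sc
    have s20 : (⟨phi9 u v a 2 0, hmem _ _⟩ : D) ∈ span (threeTranspositionLines D)
        (Tset D a b (b * a * b⁻¹) ∪ Tset D a c (c * a * c⁻¹)) := by
      have : (⟨phi9 u v a 2 0, hmem _ _⟩ : D) = ⟨_, hx⟩ := Subtype.ext p20
      rw [this]; exact sx
    have s02 : (⟨phi9 u v a 0 2, hmem _ _⟩ : D) ∈ span (threeTranspositionLines D)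
        (Tset D a b (b * a * b⁻¹) ∪ Tset D a c (c * a * c⁻¹)) := by
      have : (⟨phi9 u v a 0 2, hmem _ _⟩ : D) = ⟨_, hy⟩ := Subtype.ext p02
      rw [this]; exact sy
    have aux : ∀ i j : ZMod 3, (⟨phi9 u v a i j, hmem _ _⟩ : D) ∈ span (threeTranspositionLines D)
        (Tset D a b (b * a * b⁻¹) ∪ Tset D a c (c * a * c⁻¹)) := by
      intro i j
      rcases zmod3_cases i with rfl | rfl | rfl <;> rcases zmod3_cases j with rfl | rfl | rfl
      · exact s00
      · exact s01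
      · exact s02
      · exact s10
      · have t := C1 2 0 1 2 (Or.inl (by decide))
        rw [show (2 + 1 : ZMod 3) = 0 by decide, show (0 + 2 : ZMod 3) = 2 by decide,
          show (2 - 1 : ZMod 3) = 1 by decide, show (0 - 2 : ZMod 3) = 1 by decide] at t
        exact span_closed t (hmem _ _) (hmem _ _) (hmem _ _) s20 s02
      · have t := C1 2 0 1 1 (Or.inl (by decide))
        rw [show (2 + 1 : ZMod 3) = 0 by decide, show (0 + 1 : ZMod 3) = 1 by decide,
          show (2 - 1 : ZMod 3) = 1 by decide, show (0 - 1 : ZMod 3) = 2 by decide] at t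
        exact span_closed t (hmem _ _) (hmem _ _) (hmem _ _) s20 s01
      · exact s20
      · have t := C1 1 0 2 2 (Or.inl (by decide))
        rw [show (1 + 2 : ZMod 3) = 0 by decide, show (0 + 2 : ZMod 3) = 2 by decide,
          show (1 - 2 : ZMod 3) = 2 by decide, show (0 - 2 : ZMod 3) = 1 by decide] at t
        exact span_closed t (hmem _ _) (hmem _ _) (hmem _ _) s10 s02
      · have t := C1 1 0 2 1 (Or.inl (by decide))
        rw [show (1 + 2 : ZMod 3) = 0 by decide, show (0 + 1 : ZMod 3) = 1 by decide,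
          show (1 - 2 : ZMod 3) = 2 by decide, show (0 - 1 : ZMod 3) = 2 by decide] at t
        exact span_closed t (hmem _ _) (hmem _ _) (hmem _ _) s10 s01
    intro p
    exact aux (p 0) (p 1)

end Cfsg.Agent.Lib.Helper71.Fischer
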