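import Mathlib
import Cfsg.Prelude.Def_FischerSpaces
import Cfsg.Agent.Lib.Helper71.FischerBase

set_option autoImplicit false

namespace Cfsg.Agent.Lib.Helper71.Fischer

open Cfsg Cfsg.LineSystem

variable {G : Type*} [Group G] {D : Set G}

def d01 : DualAffinePoint := ⟨{0, 1}, by decide⟩
def d12 : DualAffinePoint := ⟨{1, 2}, by decide⟩
def d03 : DualAffinePoint := ⟨{0, 3}, by decide⟩
def d02 : DualAffinePoint := ⟨{0, 2}, by decide⟩
def d13 : DualAffinePoint := ⟨{1, 3}, by decide⟩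
def d23 : DualAffinePoint := ⟨{2, 3}, by decide⟩

theorem dap_cases (s : DualAffinePoint) :
    s = d01 ∨ s = d12 ∨ s = d03 ∨ s = d02 ∨ s = d13 ∨ s = d23 := by
  revert s; decide

theorem dap_pairs (p q : DualAffinePoint) :
    p = q ∨ (∃ i : Fin 4, i ∉ p.val ∧ i ∉ q.val) ∨ (p = d01 ∧ q = d23) ∨ (p = d23 ∧ q = d01) ∨
      (p = d12 ∧ q = d03) ∨ (p = d03 ∧ q = d12) ∨ (p = d02 ∧ q = d13) ∨ (p = d13 ∧ q = d02) := by
  revert p q; decide

theorem dap_line0 : {s : DualAffinePoint | (0 : Fin 4) ∉ s.val} = {d13, d12, d23} := by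
  ext s
  simp only [Set.mem_ofPred_eq, Set.mem_insert_iff, Set.mem_singleton_iff]
  revert s; decide

theorem dap_line1 : {s : DualAffinePoint | (1 : Fin 4) ∉ s.val} = {d02, d03, d23} := by
  ext s
  simp only [Set.mem_ofPred_eq, Set.mem_insert_iff, Set.mem_singleton_iff]
  revert s; decide

theorem dap_line2 : {s : DualAffinePoint | (2 : Fin 4) ∉ s.val} = {d01, d03, d13} := by
  ext s
  simp only [Set.mem_ofPred_eq, Set.mem_insert_iff, Set.mem_singleton_iff]
  revert s; decide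

theorem dap_line3 : {s : DualAffinePoint | (3 : Fin 4) ∉ s.val} = {d01, d12, d02} := by
  ext s
  simp only [Set.mem_ofPred_eq, Set.mem_insert_iff, Set.mem_singleton_iff]
  revert s; decide

/-- the coordinate map of the six-point plane -/
def phi6 {α : Type*} (a b c x y d : α) (s : DualAffinePoint) : α :=
  if s = d01 then a else if s = d12 then b else if s = d03 then c else if s = d02 then x
  else if s = d13 then y else d

section
variable {α : Type*} (a b c x y d : α)
theorem phi6_01 : phi6 a b c x y d d01 = a := by simp [phi6]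
theorem phi6_12 : phi6 a b c x y d d12 = b := by
  simp [phi6, show d12 ≠ d01 by decide]
theorem phi6_03 : phi6 a b c x y d d03 = c := by
  simp [phi6, show d03 ≠ d01 by decide, show d03 ≠ d12 by decide]
theorem phi6_02 : phi6 a b c x y d d02 = x := by
  simp [phi6, show d02 ≠ d01 by decide, show d02 ≠ d12 by decide, show d02 ≠ d03 by decide]
theorem phi6_13 : phi6 a b c x y d d13 = y := by
  simp [phi6, show d13 ≠ d01 by decide, show d13 ≠ d12 by decide, show d13 ≠ d03 by decide,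
    show d13 ≠ d02 by decide]
theorem phi6_23 : phi6 a b c x y d d23 = d := by
  simp [phi6, show d23 ≠ d01 by decide, show d23 ≠ d12 by decide, show d23 ≠ d03 by decide,
    show d23 ≠ d02 by decide, show d23 ≠ d13 by decide]
end

theorem dual_case (hD : TD D) {a b c : G} (ha : a ∈ D) (hb : b ∈ D) (hc : c ∈ D)
    (hab : ¬ Commute a b) (hac : ¬ Commute a c) (hbc : Commute b c) (hne : b ≠ c) :
    Isomorphic (restrict (threeTranspositionLines D)
      (span (threeTranspositionLines D)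
        (Tset D a b (b * a * b⁻¹) ∪ Tset D a c (c * a * c⁻¹)))) dualAffinePlaneTwo := by
  have t1 : Tri D a b (b * a * b⁻¹) := ⟨ha, hb, hab, rfl⟩
  have t2 : Tri D a c (c * a * c⁻¹) := ⟨ha, hc, hac, rfl⟩
  have hx := t1.mem3 hD
  have hy := t2.mem3 hD
  have ha2 := hD.sq a ha
  have hai := hD.inv ha
  have hbi := hD.inv hb
  have hci := hD.inv hc
  have bx : b * a * b⁻¹ = a * b * a⁻¹ := hD.braid ha hb hab
  have by' : c * a * c⁻¹ = a * c * a⁻¹ := hD.braid ha hc hac
  have nxc : ¬ Commute (b * a * b⁻¹) c := by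
    intro h
    apply hac
    have : Commute (b⁻¹ * (b * a * b⁻¹) * b) c := (hbc.inv_left.mul_left h).mul_left hbc
    have e : b⁻¹ * (b * a * b⁻¹) * b = a := by group
    rwa [e] at this
  have nyb : ¬ Commute (c * a * c⁻¹) b := by
    intro h
    apply hab
    have : Commute (c⁻¹ * (c * a * c⁻¹) * c) b := (hbc.symm.inv_left.mul_left h).mul_left hbc.symm
    have e : c⁻¹ * (c * a * c⁻¹) * c = a := by group
    rwa [e] at this
  have t3 : Tri D (b * a * b⁻¹) c (c * (b * a * b⁻¹) * c⁻¹) := ⟨hx, hc, nxc, rfl⟩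
  have hd := t3.mem3 hD
  have ed : c * (b * a * b⁻¹) * c⁻¹ = b * (c * a * c⁻¹) * b⁻¹ := by
    have h1 : c * (b * a * b⁻¹) * c⁻¹ = (c * b) * a * (c * b)⁻¹ := by group
    have h2 : b * (c * a * c⁻¹) * b⁻¹ = (b * c) * a * (b * c)⁻¹ := by group
    rw [h1, h2, hbc.eq]
  have t4 : Tri D (c * a * c⁻¹) b (c * (b * a * b⁻¹) * c⁻¹) := ⟨hy, hb, nyb, ed⟩
  have cxy : Commute (b * a * b⁻¹) (c * a * c⁻¹) := by
    rw [bx, by']; exact (Commute.conj_iff a).2 hbc
  have nxy : b * a * b⁻¹ ≠ c * a * c⁻¹ := by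
    rw [bx, by']
    intro h
    apply hne
    have := congrArg (fun g => a⁻¹ * g * a) h
    simpa [mul_assoc] using this
  have ed2 : a * (c * (b * a * b⁻¹) * c⁻¹) * a⁻¹ = c * (b * a * b⁻¹) * c⁻¹ := by
    have h1 : a * (c * (a * b * a⁻¹) * c⁻¹) * a⁻¹ =
        (a * c * a⁻¹) * (a * a * b * (a * a)⁻¹) * (a * c * a⁻¹)⁻¹ := by group
    rw [show a * (c * (b * a * b⁻¹) * c⁻¹) * a⁻¹ = a * (c * (a * b * a⁻¹) * c⁻¹) * a⁻¹ by rw [bx],
      h1, ha2, ← by', ed]
    have := hD.braid hy hb nyb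
    rw [this]; simp
  have cad : Commute a (c * (b * a * b⁻¹) * c⁻¹) := by
    have := congrArg (· * a) ed2
    simp only [inv_mul_cancel_right] at this
    exact this
  have nad : a ≠ c * (b * a * b⁻¹) * c⁻¹ := by
    intro h
    apply nxy
    rw [ed] at h
    -- a = b y b⁻¹
    have h2 : b⁻¹ * a * b = c * a * c⁻¹ := by
      conv_lhs => rw [h]
      group
    rw [← h2, hbi]
  set φ : DualAffinePoint → D := phi6 ⟨a, ha⟩ ⟨b, hb⟩ ⟨c, hc⟩ ⟨_, hx⟩ ⟨_, hy⟩ ⟨_, hd⟩ with hφ
  apply iso_of_model hD dualAffinePlaneTwo φ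
  · rintro _ ⟨i, rfl⟩
    fin_cases i
    · exact ⟨d13, d12, d23, dap_line0, by simpa [hφ, phi6_13, phi6_12, phi6_23] using t4⟩
    · exact ⟨d02, d03, d23, dap_line1, by simpa [hφ, phi6_02, phi6_03, phi6_23] using t3⟩
    · exact ⟨d01, d03, d13, dap_line2, by simpa [hφ, phi6_01, phi6_03, phi6_13] using t2⟩
    · exact ⟨d01, d12, d02, dap_line3, by simpa [hφ, phi6_01, phi6_12, phi6_02] using t1⟩
  · intro p q hpq
    rcases dap_pairs p q with h | ⟨i, hi, hj⟩ | ⟨rfl, rfl⟩ | ⟨rfl, rfl⟩ | ⟨rfl, rfl⟩ | ⟨rfl, rfl⟩ |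
      ⟨rfl, rfl⟩ | ⟨rfl, rfl⟩
    · exact absurd h hpq
    · exact Or.inl ⟨_, ⟨i, rfl⟩, hi, hj⟩
    · right
      simp only [hφ, phi6_01, phi6_23]
      exact ⟨cad, fun h => nad (congrArg Subtype.val h)⟩
    · right
      simp only [hφ, phi6_01, phi6_23]
      exact ⟨cad.symm, fun h => nad (congrArg Subtype.val h).symm⟩
    · right
      simp only [hφ, phi6_12, phi6_03]
      exact ⟨hbc, fun h => hne (congrArg Subtype.val h)⟩
    · right
      simp only [hφ, phi6_12, phi6_03]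
      exact ⟨hbc.symm, fun h => hne (congrArg Subtype.val h).symm⟩
    · right
      simp only [hφ, phi6_02, phi6_13]
      exact ⟨cxy, fun h => nxy (congrArg Subtype.val h)⟩
    · right
      simp only [hφ, phi6_02, phi6_13]
      exact ⟨cxy.symm, fun h => nxy (congrArg Subtype.val h).symm⟩
  · rintro z (hz | hz)
    · rcases hz with hz | hz | hz
      · exact ⟨d01, Subtype.ext (by simp only [hφ, phi6_01]; exact hz.symm)⟩
      · exact ⟨d12, Subtype.ext (by simp only [hφ, phi6_12]; exact hz.symm)⟩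
      · exact ⟨d02, Subtype.ext (by simp only [hφ, phi6_02]; exact hz.symm)⟩
    · rcases hz with hz | hz | hz
      · exact ⟨d01, Subtype.ext (by simp only [hφ, phi6_01]; exact hz.symm)⟩
      · exact ⟨d03, Subtype.ext (by simp only [hφ, phi6_03]; exact hz.symm)⟩
      · exact ⟨d13, Subtype.ext (by simp only [hφ, phi6_13]; exact hz.symm)⟩
  · intro p
    have sa : (⟨a, ha⟩ : D) ∈ span (threeTranspositionLines D)
        (Tset D a b (b * a * b⁻¹) ∪ Tset D a c (c * a * c⁻¹)) :=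
      subset_span _ _ (Or.inl (Or.inl rfl))
    have sb : (⟨b, hb⟩ : D) ∈ span (threeTranspositionLines D)
        (Tset D a b (b * a * b⁻¹) ∪ Tset D a c (c * a * c⁻¹)) :=
      subset_span _ _ (Or.inl (Or.inr (Or.inl rfl)))
    have sx : (⟨_, hx⟩ : D) ∈ span (threeTranspositionLines D)
        (Tset D a b (b * a * b⁻¹) ∪ Tset D a c (c * a * c⁻¹)) :=
      subset_span _ _ (Or.inl (Or.inr (Or.inr rfl)))
    have sc : (⟨c, hc⟩ : D) ∈ span (threeTranspositionLines D)
        (Tset D a b (b * a * b⁻¹) ∪ Tset D a c (c * a * c⁻¹)) :=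
      subset_span _ _ (Or.inr (Or.inr (Or.inl rfl)))
    have sy : (⟨_, hy⟩ : D) ∈ span (threeTranspositionLines D)
        (Tset D a b (b * a * b⁻¹) ∪ Tset D a c (c * a * c⁻¹)) :=
      subset_span _ _ (Or.inr (Or.inr (Or.inr rfl)))
    rcases dap_cases p with rfl | rfl | rfl | rfl | rfl | rfl
    · simp only [hφ, phi6_01]; exact sa
    · simp only [hφ, phi6_12]; exact sb
    · simp only [hφ, phi6_03]; exact sc
    · simp only [hφ, phi6_02]; exact sx
    · simp only [hφ, phi6_13]; exact sy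
    · simp only [hφ, phi6_23]; exact span_closed t3 hx hc hd sx sc

end Cfsg.Agent.Lib.Helper71.Fischer
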