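import Mathlib
import Cfsg.Prelude.Def_FischerSpaces

set_option autoImplicit false

namespace Cfsg.Agent.Lib.Helper71.FischerInv

open Cfsg Cfsg.LineSystem

variable {X : Type*}

/-- `z` is the third point of a line through `x ≠ y`. -/
def Third (L : Set (Set X)) (x y z : X) : Prop :=
  z ≠ x ∧ z ≠ y ∧ x ≠ y ∧ ({x, y, z} : Set X) ∈ L

theorem Third.symm23 {L : Set (Set X)} {x y z : X} (h : Third L x y z) : Third L x z y := by
  obtain ⟨h1, h2, h3, h4⟩ := h
  refine ⟨h3.symm, h2.symm, h1.symm, ?_⟩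
  have : ({x, z, y} : Set X) = {x, y, z} := by
    ext w; simp only [Set.mem_insert_iff, Set.mem_singleton_iff]; tauto
  rw [this]; exact h4

theorem Third.symm12 {L : Set (Set X)} {x y z : X} (h : Third L x y z) : Third L y x z := by
  obtain ⟨h1, h2, h3, h4⟩ := h
  refine ⟨h2, h1, h3.symm, ?_⟩
  have : ({y, x, z} : Set X) = {x, y, z} := by
    ext w; simp only [Set.mem_insert_iff, Set.mem_singleton_iff]; tauto
  rw [this]; exact h4

theorem third_unique {L : Set (Set X)} (hpl : IsPartialLinear L) {x y z z' : X}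
    (h : Third L x y z) (h' : Third L x y z') : z = z' := by
  have e := hpl _ h.2.2.2 _ h'.2.2.2 x y h.2.2.1 (by simp) (by simp) (by simp) (by simp)
  have hz : z ∈ ({x, y, z'} : Set X) := by rw [← e]; simp
  simp only [Set.mem_insert_iff, Set.mem_singleton_iff] at hz
  rcases hz with hz | hz | hz
  · exact absurd hz h.1
  · exact absurd hz h.2.1
  · exact hz

theorem lineMap_of_third {L : Set (Set X)} (hpl : IsPartialLinear L) {x y z : X}
    (h : Third L x y z) : lineMap L x y = z := by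
  have h' : ∃ z : X, z ≠ x ∧ z ≠ y ∧ x ≠ y ∧ ({x, y, z} : Set X) ∈ L := ⟨z, h⟩
  unfold lineMap
  rw [dif_pos h']
  exact third_unique hpl h'.choose_spec h

theorem lineMap_of_not {L : Set (Set X)} {x y : X} (h : ¬ ∃ z, Third L x y z) :
    lineMap L x y = y := by
  have h' : ¬ ∃ z : X, z ≠ x ∧ z ≠ y ∧ x ≠ y ∧ ({x, y, z} : Set X) ∈ L := h
  unfold lineMap
  rw [dif_neg h']

theorem lineMap_self {L : Set (Set X)} (x : X) : lineMap L x x = x :=
  lineMap_of_not (fun ⟨_, h⟩ => h.2.2.1 rfl)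

theorem lineMap_invol {L : Set (Set X)} (hpl : IsPartialLinear L) (x : X) :
    Function.Involutive (lineMap L x) := by
  intro y
  by_cases h : ∃ z, Third L x y z
  · obtain ⟨z, hz⟩ := h
    rw [lineMap_of_third hpl hz, lineMap_of_third hpl hz.symm23]
  · rw [lineMap_of_not h, lineMap_of_not h]

/-- the permutation `t(x)` -/
noncomputable def sig (L : Set (Set X)) (hpl : IsPartialLinear L) (x : X) : Equiv.Perm X :=
  (lineMap_invol hpl x).toPerm

theorem sig_coe (L : Set (Set X)) (hpl : IsPartialLinear L) (x : X) :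
    ⇑(sig L hpl x) = lineMap L x := rfl

theorem sig_sq (L : Set (Set X)) (hpl : IsPartialLinear L) (x : X) :
    sig L hpl x * sig L hpl x = 1 := by
  ext y
  exact lineMap_invol hpl x y

theorem line_through {L : Set (Set X)} (h3 : ∀ l ∈ L, l.ncard = 3) {l : Set X} (hl : l ∈ L)
    {x : X} (hx : x ∈ l) : ∃ y z, l = {x, y, z} ∧ Third L x y z := by
  obtain ⟨p, q, r, hpq, hpr, hqr, rfl⟩ := Set.ncard_eq_three.1 (h3 l hl)
  simp only [Set.mem_insert_iff, Set.mem_singleton_iff] at hx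
  rcases hx with rfl | rfl | rfl
  · exact ⟨q, r, rfl, hpr.symm, hqr.symm, hpq, hl⟩
  · have e : ({p, x, r} : Set X) = {x, p, r} := by
      ext w; simp only [Set.mem_insert_iff, Set.mem_singleton_iff]; tauto
    exact ⟨p, r, e, hqr.symm, hpr.symm, hpq.symm, e ▸ hl⟩
  · have e : ({p, q, x} : Set X) = {x, p, q} := by
      ext w; simp only [Set.mem_insert_iff, Set.mem_singleton_iff]; tauto
    exact ⟨p, q, e, hqr, hpq.symm, hpr.symm, e ▸ hl⟩

/-- What we need to know about a model plane `M` with its point reflections `τ`. -/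
structure ModelOK {P : Type*} (M : Set (Set P)) (τ : P → P → P) : Prop where
  uniq : ∀ p q r, Third M p q r → r = τ p q
  fix : ∀ p q, (¬ ∃ r, Third M p q r) → τ p q = q
  maps : ∀ p, ∀ μ ∈ M, (τ p) '' μ ∈ M

theorem isSubspace_span (L : Set (Set X)) (S : Set X) : IsSubspace L (span L S) := by
  intro l hl x hx y hy hxy hxl hyl z hz
  simp only [span, Set.mem_sInter, Set.mem_ofPred_eq] at hx hy ⊢
  intro T hT
  exact hT.2 l hl x (hx T hT) y (hy T hT) hxy hxl hyl hz

theorem subset_span (L : Set (Set X)) (S : Set X) : S ⊆ span L S := by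
  intro x hx
  simp only [span, Set.mem_sInter, Set.mem_ofPred_eq]
  intro T hT
  exact hT.1 hx

theorem plane_maps {L : Set (Set X)} (hpl : IsPartialLinear L) {P : Type*} {M : Set (Set P)}
    {τ : P → P → P} (hM : ModelOK M τ) {π : Set X} (hπ : IsSubspace L π) (e : ↥π ≃ P)
    (he : IsIso (restrict L π) M e) {x : X} (hx : x ∈ π) {l : Set X} (hl : l ∈ L) (hlπ : l ⊆ π) :
    (lineMap L x) '' l ∈ L := by
  let ψ : P → X := fun p => ((e.symm p : ↥π) : X)
  have hψinj : Function.Injective ψ := fun p q h => e.symm.injective (Subtype.ext h)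
  have hψπ : ∀ p, ψ p ∈ π := fun p => (e.symm p).2
  have hψe : ∀ w : ↥π, ψ (e w) = w := fun w => by simp [ψ]
  have F1 : ∀ μ ∈ M, ψ '' μ ∈ L := by
    intro μ hμ
    have h1 : e.symm '' μ ∈ restrict L π := by
      rw [he]
      have : e '' (e.symm '' μ) = μ := by
        rw [Set.image_image]; simp
      rw [this]; exact hμ
    obtain ⟨l0, hl0, hl0π, hs⟩ := h1
    have : ψ '' μ = l0 := by
      ext z
      constructor
      · rintro ⟨p, hp, rfl⟩
        have : e.symm p ∈ e.symm '' μ := Set.mem_image_of_mem _ hp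
        rw [hs] at this
        exact this
      · intro hz
        have : (⟨z, hl0π hz⟩ : ↥π) ∈ e.symm '' μ := by rw [hs]; exact hz
        obtain ⟨p, hp, hpz⟩ := this
        exact ⟨p, hp, congrArg Subtype.val hpz⟩
    rw [this]; exact hl0
  have F2 : ∀ l0 ∈ L, l0 ⊆ π → ∃ μ ∈ M, l0 = ψ '' μ := by
    intro l0 hl0 hl0π
    refine ⟨e '' {w : ↥π | (w : X) ∈ l0}, ?_, ?_⟩
    · rw [← he]; exact ⟨l0, hl0, hl0π, rfl⟩
    · ext z
      constructor
      · intro hz
        exact ⟨e ⟨z, hl0π hz⟩, ⟨⟨z, hl0π hz⟩, hz, rfl⟩, hψe _⟩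
      · rintro ⟨p, ⟨w, hw, rfl⟩, rfl⟩
        rw [hψe]; exact hw
  have T1 : ∀ p q r, Third M p q r → Third L (ψ p) (ψ q) (ψ r) := by
    intro p q r h
    refine ⟨fun e' => h.1 (hψinj e'), fun e' => h.2.1 (hψinj e'), fun e' => h.2.2.1 (hψinj e'), ?_⟩
    have := F1 _ h.2.2.2
    simpa [Set.image_insert_eq] using this
  have T2 : ∀ p q z, Third L (ψ p) (ψ q) z → ∃ r, z = ψ r ∧ Third M p q r := by
    intro p q z h
    have hsub : ({ψ p, ψ q, z} : Set X) ⊆ π :=
      hπ _ h.2.2.2 (ψ p) (hψπ p) (ψ q) (hψπ q) h.2.2.1 (by simp) (by simp)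
    have hz : z ∈ π := hsub (by simp)
    obtain ⟨μ, hμ, hμe⟩ := F2 _ h.2.2.2 hsub
    have hzr : z = ψ (e ⟨z, hz⟩) := (hψe ⟨z, hz⟩).symm
    refine ⟨e ⟨z, hz⟩, hzr, ?_⟩
    refine ⟨?_, ?_, fun e' => h.2.2.1 (by rw [e']), ?_⟩
    · intro e'; apply h.1; rw [hzr, e']
    · intro e'; apply h.2.1; rw [hzr, e']
    · have : ψ '' μ = ψ '' {p, q, e ⟨z, hz⟩} := by
        rw [← hμe]; simp only [Set.image_insert_eq, Set.image_singleton]; rw [← hzr]
      rw [← hψinj.image_injective this]; exact hμ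
  have C : ∀ p q, lineMap L (ψ p) (ψ q) = ψ (τ p q) := by
    intro p q
    by_cases h : ∃ z, Third L (ψ p) (ψ q) z
    · obtain ⟨z, hz⟩ := h
      obtain ⟨r, rfl, hr⟩ := T2 p q z hz
      rw [lineMap_of_third hpl hz, hM.uniq p q r hr]
    · rw [lineMap_of_not h, hM.fix p q]
      rintro ⟨r, hr⟩
      exact h ⟨ψ r, T1 p q r hr⟩
  obtain ⟨μ, hμ, rfl⟩ := F2 l hl hlπ
  have hx' : x = ψ (e ⟨x, hx⟩) := (hψe ⟨x, hx⟩).symm
  have : lineMap L x '' (ψ '' μ) = ψ '' (τ (e ⟨x, hx⟩) '' μ) := by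
    rw [Set.image_image, Set.image_image]
    apply Set.image_congr
    intro q _
    have := C (e ⟨x, hx⟩) q
    rw [← hx'] at this
    exact this
  rw [this]
  exact F1 _ (hM.maps _ μ hμ)

end Cfsg.Agent.Lib.Helper71.FischerInv
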