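import Mathlib
import Cfsg.Prelude.Def_FischerSpaces
import Cfsg.Agent.Lib.Helper71.FischerInv

set_option autoImplicit false

namespace Cfsg.Agent.Lib.Helper71.FischerInv

open Cfsg Cfsg.LineSystem

/-! ### the affine plane of order three -/

theorem zmod3_cases' (i : ZMod 3) : i = 0 ∨ i = 1 ∨ i = 2 := by
  revert i; decide

theorem affine_line_eq (v w : Fin 2 → ZMod 3) :
    {x : Fin 2 → ZMod 3 | ∃ c : ZMod 3, x = v + c • w} = {v, v + w, v - w} := by
  ext x
  simp only [Set.mem_ofPred_eq, Set.mem_insert_iff, Set.mem_singleton_iff]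
  constructor
  · rintro ⟨t, rfl⟩
    rcases zmod3_cases' t with rfl | rfl | rfl
    · left; simp
    · right; left; simp
    · right; right
      have : (2 : ZMod 3) = -1 := by decide
      rw [this]; simp [sub_eq_add_neg]
  · rintro (rfl | rfl | rfl)
    · exact ⟨0, by simp⟩
    · exact ⟨1, by simp⟩
    · refine ⟨2, ?_⟩
      have : (2 : ZMod 3) = -1 := by decide
      rw [this]; simp [sub_eq_add_neg]

theorem affineOK : ModelOK affinePlaneThree (fun p q : Fin 2 → ZMod 3 => -p - q) := by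
  refine ⟨?_, ?_, ?_⟩
  · rintro p q r ⟨hrp, hrq, hpq, v, w, hw, hs⟩
    have hp : p ∈ ({p, q, r} : Set (Fin 2 → ZMod 3)) := by simp
    have hq : q ∈ ({p, q, r} : Set (Fin 2 → ZMod 3)) := by simp
    have hr : r ∈ ({p, q, r} : Set (Fin 2 → ZMod 3)) := by simp
    rw [hs] at hp hq hr
    obtain ⟨c1, rfl⟩ := hp
    obtain ⟨c2, rfl⟩ := hq
    obtain ⟨c3, rfl⟩ := hr
    have h12 : c1 ≠ c2 := by rintro rfl; exact hpq rfl
    have h31 : c3 ≠ c1 := by rintro rfl; exact hrp rfl
    have h32 : c3 ≠ c2 := by rintro rfl; exact hrq rfl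
    have key : ∀ c1 c2 c3 : ZMod 3, c1 ≠ c2 → c3 ≠ c1 → c3 ≠ c2 → c3 = -c1 - c2 := by decide
    have h3 : ∀ t : ZMod 3, t = -t - t := by decide
    rw [key c1 c2 c3 h12 h31 h32]
    funext k
    simp only [Pi.add_apply, Pi.smul_apply, smul_eq_mul, Pi.sub_apply, Pi.neg_apply]
    linear_combination h3 (v k)
  · intro p q h
    by_cases hpq : p = q
    · subst hpq
      have h3 : ∀ t : ZMod 3, -t - t = t := by decide
      funext k
      simp only [Pi.sub_apply, Pi.neg_apply]
      exact h3 _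
    · exfalso
      apply h
      refine ⟨-p - q, ?_, ?_, hpq, p, q - p, sub_ne_zero.2 (Ne.symm hpq), ?_⟩
      · intro e
        apply hpq
        have h3 : ∀ s t : ZMod 3, -s - t = s → s = t := by decide
        funext k
        exact h3 _ _ (by simpa using congrFun e k)
      · intro e
        apply hpq
        have h3 : ∀ s t : ZMod 3, -s - t = t → s = t := by decide
        funext k
        exact h3 _ _ (by simpa using congrFun e k)
      · rw [affine_line_eq]
        have e1 : p + (q - p) = q := by abel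
        have e2 : p - (q - p) = -p - q := by
          have h3 : ∀ s t : ZMod 3, s - (t - s) = -s - t := by decide
          funext k
          simp only [Pi.sub_apply, Pi.neg_apply]
          exact h3 _ _
        rw [e1, e2]
  · rintro p _ ⟨v, w, hw, rfl⟩
    refine ⟨-p - v, w, hw, ?_⟩
    ext x
    constructor
    · rintro ⟨q, ⟨c, rfl⟩, rfl⟩
      refine ⟨-c, ?_⟩
      simp only [neg_smul]; abel
    · rintro ⟨c, rfl⟩
      refine ⟨v + (-c) • w, ⟨-c, rfl⟩, ?_⟩
      simp only [neg_smul]; abel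

/-! ### the dual affine plane of order two -/

/-- point reflection in the dual affine plane -/
def tau6 (p q : DualAffinePoint) : DualAffinePoint :=
  if h : (symmDiff p.val q.val).card = 2 then ⟨symmDiff p.val q.val, h⟩ else q

theorem tau6_uniq : ∀ (p q r : DualAffinePoint) (i : Fin 4), r ≠ p → r ≠ q → p ≠ q →
    i ∉ p.val → i ∉ q.val → i ∉ r.val → r = tau6 p q := by
  decide

theorem tau6_fix : ∀ p q : DualAffinePoint, tau6 p q = q ∨
    (tau6 p q ≠ p ∧ tau6 p q ≠ q ∧ p ≠ q ∧
      ∃ i : Fin 4, ∀ s : DualAffinePoint, (s = p ∨ s = q ∨ s = tau6 p q) ↔ i ∉ s.val) := by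
  decide

theorem tau6_maps : ∀ (p : DualAffinePoint) (i : Fin 4), ∃ j : Fin 4, ∀ s : DualAffinePoint,
    (∃ s' : DualAffinePoint, i ∉ s'.val ∧ tau6 p s' = s) ↔ j ∉ s.val := by
  decide

theorem dualOK : ModelOK dualAffinePlaneTwo tau6 := by
  refine ⟨?_, ?_, ?_⟩
  · rintro p q r ⟨hrp, hrq, hpq, i, hs⟩
    have hp : p ∈ ({p, q, r} : Set DualAffinePoint) := by simp
    have hq : q ∈ ({p, q, r} : Set DualAffinePoint) := by simp
    have hr : r ∈ ({p, q, r} : Set DualAffinePoint) := by simp
    rw [hs] at hp hq hr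
    exact tau6_uniq p q r i hrp hrq hpq hp hq hr
  · intro p q h
    rcases tau6_fix p q with h1 | ⟨h1, h2, h3, i, hi⟩
    · exact h1
    · exfalso
      apply h
      refine ⟨tau6 p q, h1, h2, h3, i, ?_⟩
      ext s
      simp only [Set.mem_insert_iff, Set.mem_singleton_iff, Set.mem_ofPred_eq]
      exact hi s
  · rintro p _ ⟨i, rfl⟩
    obtain ⟨j, hj⟩ := tau6_maps p i
    refine ⟨j, ?_⟩
    ext s
    simp only [Set.mem_image, Set.mem_ofPred_eq]
    exact hj s

end Cfsg.Agent.Lib.Helper71.FischerInv
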