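import Mathlib

/-!
Group-ring description of fixed-point-free modules.

For a finite group `G` and a commutative ring `R`, `fpfIdeal R G` is the left ideal of `R[G]`
generated by the norm elements `normElt R a = 1 + a + ... + a^(o(a)-1)`, `a ≠ 1`.  It is a
two-sided ideal.  A module on which `G` acts without fixed points (of order prime to `|G|`) is
killed by it.  The main result (`exists_int_witness`) lifts a fixed-point-free module in one
characteristic to an element `F ≠ 0` of `ℤ[G]` annihilated on the left by all norm elements;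
from it one gets fixed-point-free modules in every characteristic.
-/

set_option autoImplicit false

namespace Cfsg.Agent.Lib.Helper71

open MonoidAlgebra

section normElt

variable {G : Type*} [Group G]

/-- The norm element `1 + a + ... + a^(n-1)` (`n` the order of `a`) of the group ring. -/
noncomputable def normElt (R : Type*) [Semiring R] (a : G) : MonoidAlgebra R G :=
  ∑ i ∈ Finset.range (orderOf a), MonoidAlgebra.of R G (a ^ i)

theorem of_mul_normElt (R : Type*) [Semiring R] [Finite G] (a : G) :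
    MonoidAlgebra.of R G a * normElt R a = normElt R a := by
  unfold normElt
  rw [Finset.mul_sum]
  have hn : 0 < orderOf a := orderOf_pos a
  obtain ⟨m, hm⟩ : ∃ m, orderOf a = m + 1 := ⟨orderOf a - 1, by omega⟩
  rw [hm, Finset.sum_range_succ, Finset.sum_range_succ']
  congr 1
  · apply Finset.sum_congr rfl
    intro i _
    rw [← map_mul, ← pow_succ']
  · rw [← map_mul, ← pow_succ', ← hm, pow_orderOf_eq_one, pow_zero]

theorem of_pow_mul_normElt (R : Type*) [Semiring R] [Finite G] (a : G) (i : ℕ) :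
    MonoidAlgebra.of R G (a ^ i) * normElt R a = normElt R a := by
  induction i with
  | zero => rw [pow_zero, map_one, one_mul]
  | succ i ih => rw [pow_succ, map_mul, mul_assoc, of_mul_normElt, ih]

theorem normElt_mul_self (R : Type*) [Semiring R] [Finite G] (a : G) :
    normElt R a * normElt R a = orderOf a • normElt R a := by
  have h : normElt R a * normElt R a =
      ∑ i ∈ Finset.range (orderOf a), MonoidAlgebra.of R G (a ^ i) * normElt R a := by
    nth_rewrite 1 [normElt]
    rw [Finset.sum_mul]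
  rw [h, Finset.sum_congr rfl (fun i _ => of_pow_mul_normElt R a i), Finset.sum_const,
    Finset.card_range]

theorem normElt_mul_of (R : Type*) [Semiring R] (a g : G) :
    normElt R a * MonoidAlgebra.of R G g =
      MonoidAlgebra.of R G g * normElt R (g⁻¹ * a * g) := by
  have ho : orderOf (g⁻¹ * a * g) = orderOf a := by
    have := (MulAut.conj g⁻¹).orderOf_eq a
    simpa [MulAut.conj_apply] using this
  unfold normElt
  rw [ho, Finset.sum_mul, Finset.mul_sum]
  apply Finset.sum_congr rfl
  intro i _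
  rw [← map_mul, ← map_mul]
  congr 1
  have : (g⁻¹ * a * g) ^ i = g⁻¹ * a ^ i * g := by
    have := conj_pow (a := g⁻¹) (b := a) (i := i)
    simpa using this
  rw [this]; group

theorem map_normElt {R S : Type*} [Semiring R] [Semiring S] (f : R →+* S) (a : G) :
    MonoidAlgebra.mapRingHom G f (normElt R a) = normElt S a := by
  unfold normElt
  rw [map_sum]
  apply Finset.sum_congr rfl
  intro i _
  simp [MonoidAlgebra.of_apply]

/-- The left ideal generated by the norm elements of all non-identity elements. -/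
noncomputable def fpfIdeal (R : Type*) [Semiring R] (G : Type*) [Group G] :
    Ideal (MonoidAlgebra R G) :=
  Ideal.span (Set.range fun a : {a : G // a ≠ 1} => normElt R a.1)

theorem normElt_mem_fpfIdeal (R : Type*) [Semiring R] {a : G} (ha : a ≠ 1) :
    normElt R a ∈ fpfIdeal R G :=
  Ideal.subset_span ⟨⟨a, ha⟩, rfl⟩

/-- Induction principle for the ideal. -/
theorem fpfIdeal_induction {R : Type*} [Semiring R] {P : MonoidAlgebra R G → Prop}
    (hgen : ∀ a : G, a ≠ 1 → P (normElt R a)) (h0 : P 0)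
    (hadd : ∀ x y, P x → P y → P (x + y))
    (hsmul : ∀ (s x : MonoidAlgebra R G), P x → P (s * x))
    {x : MonoidAlgebra R G} (hx : x ∈ fpfIdeal R G) : P x := by
  unfold fpfIdeal at hx
  induction hx using Submodule.span_induction with
  | mem x hx =>
    obtain ⟨a, rfl⟩ := hx
    exact hgen a.1 a.2
  | zero => exact h0
  | add x y _ _ hx hy => exact hadd x y hx hy
  | smul s x _ hx => exact hsmul s x hx

/-- `fpfIdeal` is also a right ideal. -/
theorem mul_mem_fpfIdeal {R : Type*} [CommSemiring R] {x : MonoidAlgebra R G}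
    (hx : x ∈ fpfIdeal R G) (y : MonoidAlgebra R G) : x * y ∈ fpfIdeal R G := by
  induction y using MonoidAlgebra.induction_on with
  | of g =>
    refine fpfIdeal_induction (P := fun x => x * MonoidAlgebra.of R G g ∈ fpfIdeal R G)
      ?_ ?_ ?_ ?_ hx
    · intro a ha
      rw [normElt_mul_of]
      apply Ideal.mul_mem_left
      apply normElt_mem_fpfIdeal
      intro h
      apply ha
      have : a = g * (g⁻¹ * a * g) * g⁻¹ := by group
      rw [this, h]; group
    · simp
    · intro x y hx hy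
      rw [add_mul]; exact add_mem hx hy
    · intro s x hx
      rw [mul_assoc]; exact Ideal.mul_mem_left _ _ hx
  | add y z hy hz => rw [mul_add]; exact add_mem hy hz
  | smul r y hy =>
    rw [mul_smul_comm]
    exact Submodule.smul_of_tower_mem _ r hy

end normElt

section zmod

variable (G : Type*) [Group G]

/-- Reduction of the coefficients of the integral group ring mod `n`. -/
noncomputable abbrev redMod (n : ℕ) : MonoidAlgebra ℤ G →+* MonoidAlgebra (ZMod n) G :=
  MonoidAlgebra.mapRingHom G (Int.castRingHom (ZMod n))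

theorem redMod_surjective (n : ℕ) : Function.Surjective (redMod G n) := by
  intro y
  obtain ⟨c, hc⟩ := Finsupp.mapRange_surjective (Int.cast : ℤ → ZMod n) Int.cast_zero
    ZMod.intCast_surjective y.coeff
  refine ⟨MonoidAlgebra.ofCoeff c, ?_⟩
  ext g
  simp [← hc]

variable {G}

theorem redMod_eq_zero {n : ℕ} {x : MonoidAlgebra ℤ G} (h : redMod G n x = 0) :
    ∃ z : MonoidAlgebra ℤ G, x = n • z := by
  have hdvd : ∀ g : G, (n : ℤ) ∣ x.coeff g := by
    intro g
    have := congrArg (fun y => y.coeff g) h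
    simp only [MonoidAlgebra.coeff_mapRingHom, MonoidAlgebra.coeff_zero, Finsupp.coe_zero,
      Pi.zero_apply, eq_intCast] at this
    exact (ZMod.intCast_zmod_eq_zero_iff_dvd _ _).mp this
  refine ⟨MonoidAlgebra.ofCoeff (x.coeff.mapRange (fun r => r / (n : ℤ)) (by simp)), ?_⟩
  ext g
  rw [MonoidAlgebra.coeff_smul_apply, MonoidAlgebra.coeff_ofCoeff, Finsupp.mapRange_apply,
    nsmul_eq_mul, Int.mul_ediv_cancel' (hdvd g)]

theorem zmod_nsmul_eq_zero (n : ℕ) (y : MonoidAlgebra (ZMod n) G) : n • y = 0 := by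
  ext g
  rw [MonoidAlgebra.coeff_smul_apply, nsmul_eq_mul, ZMod.natCast_self, zero_mul]
  rfl

omit [Group G] in
theorem exists_nsmul_inv {n c : ℕ} [NeZero n] (h : c.Coprime n) :
    ∃ c' : ℕ, ∀ y : MonoidAlgebra (ZMod n) G, c' • (c • y) = y := by
  refine ⟨((c : ZMod n)⁻¹).val, ?_⟩
  intro y
  ext g
  rw [MonoidAlgebra.coeff_smul_apply, MonoidAlgebra.coeff_smul_apply, nsmul_eq_mul, nsmul_eq_mul,
    ZMod.natCast_zmod_val, ← mul_assoc, mul_comm _ (c : ZMod n), ZMod.coe_mul_inv_eq_one c h,
    one_mul]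

end zmod

section lifting

/-- Maschke: if the ideal is proper (over a field in which `|G|` is invertible), there is a
non-zero idempotent killed on the left by the ideal. -/
theorem exists_idempotent_of_one_notMem {k : Type*} [Field k] {G : Type*} [Group G] [Finite G]
    [NeZero (Nat.card G : k)] (h1 : (1 : MonoidAlgebra k G) ∉ fpfIdeal k G) :
    ∃ f : MonoidAlgebra k G, IsIdempotentElem f ∧ f ≠ 0 ∧ ∀ x ∈ fpfIdeal k G, x * f = 0 := by
  obtain ⟨K, hK⟩ := MonoidAlgebra.Submodule.exists_isCompl (fpfIdeal k G)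
  have htop : (1 : MonoidAlgebra k G) ∈ fpfIdeal k G ⊔ K := by
    rw [hK.sup_eq_top]; trivial
  obtain ⟨u, hu, f, hf, huf⟩ := Submodule.mem_sup.mp htop
  have hKf : ∀ y ∈ K, y * f = y := by
    intro y hy
    have h1 : y * u ∈ fpfIdeal k G := Ideal.mul_mem_left _ y hu
    have h2 : y * f ∈ K := K.smul_mem y hf
    have h3 : y = y * u + y * f := by rw [← mul_add, huf, mul_one]
    have h4 : y * u ∈ K := by
      have : y * u = y - y * f := by rw [eq_sub_iff_add_eq]; exact h3.symm
      rw [this]; exact K.sub_mem hy h2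
    have h5 : y * u = 0 := by
      have : y * u ∈ fpfIdeal k G ⊓ K := ⟨h1, h4⟩
      rw [hK.inf_eq_bot] at this
      exact (Submodule.mem_bot _).mp this
    rw [h5, zero_add] at h3
    exact h3.symm
  refine ⟨f, hKf f hf, ?_, ?_⟩
  · rintro rfl
    rw [add_zero] at huf
    exact h1 (huf ▸ hu)
  · intro x hx
    have h1 : x * f ∈ fpfIdeal k G := mul_mem_fpfIdeal hx f
    have h2 : x * f ∈ K := K.smul_mem x hf
    have : x * f ∈ fpfIdeal k G ⊓ K := ⟨h1, h2⟩
    rw [hK.inf_eq_bot] at this
    exact (Submodule.mem_bot _).mp this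

/-- The lifting theorem: if the ideal is proper over `𝔽_p` with `p ∤ |G|`, then no non-zero
integer lies in the integral ideal. -/
theorem natCast_notMem_fpfIdeal_int {G : Type*} [Group G] [Finite G] {p : ℕ} (hp : p.Prime)
    (hcop : ¬ p ∣ Nat.card G)
    (h1 : (1 : MonoidAlgebra (ZMod p) G) ∉ fpfIdeal (ZMod p) G) (m : ℕ) (hm : m ≠ 0) :
    (m : MonoidAlgebra ℤ G) ∉ fpfIdeal ℤ G := by
  have : Fact p.Prime := ⟨hp⟩
  have : NeZero (Nat.card G : ZMod p) := ⟨by rwa [Ne, ZMod.natCast_eq_zero_iff]⟩
  obtain ⟨f, hfi, hf0, hfann⟩ := exists_idempotent_of_one_notMem h1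
  intro hmem
  obtain ⟨k, m', hm', hmk⟩ := Nat.exists_eq_pow_mul_and_not_dvd hm p hp.ne_one
  obtain ⟨q, hq⟩ : ∃ q, q = p ^ (k + 1) := ⟨_, rfl⟩
  have hpq : p ∣ q := hq ▸ dvd_pow_self p (Nat.succ_ne_zero k)
  have : NeZero q := ⟨by rw [hq]; exact pow_ne_zero _ hp.ne_zero⟩
  let π : MonoidAlgebra (ZMod q) G →+* MonoidAlgebra (ZMod p) G :=
    MonoidAlgebra.mapRingHom G (ZMod.castHom hpq (ZMod p))
  have hπψ : ∀ x, π (redMod G q x) = redMod G p x := by
    intro x
    have : π.comp (redMod G q) = redMod G p := by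
      rw [← MonoidAlgebra.mapRingHom_comp]
      congr 1
      exact RingHom.ext_int _ _
    rw [← this]; rfl
  have hker : ∀ x, π x = 0 → ∃ z, x = p • z := by
    intro x hx
    obtain ⟨x', rfl⟩ := redMod_surjective G q x
    rw [hπψ] at hx
    obtain ⟨z, rfl⟩ := redMod_eq_zero hx
    exact ⟨redMod G q z, by rw [map_nsmul]⟩
  have hnil : ∀ x ∈ RingHom.ker π, IsNilpotent x := by
    intro x hx
    obtain ⟨z, rfl⟩ := hker x hx
    refine ⟨k + 1, ?_⟩
    rw [smul_pow, ← hq, zmod_nsmul_eq_zero]
  have hfr : f ∈ π.range := by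
    obtain ⟨f0, hf0'⟩ := redMod_surjective G p f
    exact ⟨redMod G q f0, by rw [hπψ, hf0']⟩
  obtain ⟨f', hf'i, hf'⟩ := exists_isIdempotentElem_eq_of_ker_isNilpotent π hnil f hfr hfi
  have hπN : ∀ a : G, π (normElt (ZMod q) a) = normElt (ZMod p) a := fun a => map_normElt _ a
  -- the norm elements kill `f'` on the left
  have hN : ∀ j : ℕ, ∀ a : G, a ≠ 1 → ∀ y : MonoidAlgebra (ZMod q) G,
      ∃ z : MonoidAlgebra (ZMod q) G, normElt (ZMod q) a * y * f' = (p ^ j) • z := by
    intro j
    induction j with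
    | zero =>
      intro a ha y
      exact ⟨_, by rw [pow_zero, one_smul]⟩
    | succ j ih =>
      intro a ha y
      obtain ⟨z, hz⟩ := ih a ha y
      have hk : π (normElt (ZMod q) a * z * f') = 0 := by
        rw [map_mul, map_mul, hf', hπN]
        exact hfann _ (mul_mem_fpfIdeal (normElt_mem_fpfIdeal _ ha) _)
      obtain ⟨w, hw⟩ := hker _ hk
      have hco : (orderOf a).Coprime q := by
        rw [hq]
        apply Nat.Coprime.pow_right
        rw [Nat.coprime_comm, hp.coprime_iff_not_dvd]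
        intro hd
        exact hcop (hd.trans (orderOf_dvd_natCard a))
      obtain ⟨c', hc'⟩ := exists_nsmul_inv (G := G) hco
      refine ⟨c' • w, ?_⟩
      have h1 : orderOf a • (normElt (ZMod q) a * y * f') = p ^ (j + 1) • w := by
        calc orderOf a • (normElt (ZMod q) a * y * f')
            = (normElt (ZMod q) a * normElt (ZMod q) a) * y * f' := by
              rw [normElt_mul_self, smul_mul_assoc, smul_mul_assoc]
          _ = normElt (ZMod q) a * (normElt (ZMod q) a * y * f') * f' := by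
              simp only [mul_assoc]
              rw [hf'i.eq]
          _ = normElt (ZMod q) a * (p ^ j • z) * f' := by rw [hz]
          _ = p ^ j • (normElt (ZMod q) a * z * f') := by
              rw [mul_smul_comm, smul_mul_assoc]
          _ = p ^ j • (p • w) := by rw [hw]
          _ = p ^ (j + 1) • w := by rw [← mul_smul, ← pow_succ]
      calc normElt (ZMod q) a * y * f'
          = c' • (orderOf a • (normElt (ZMod q) a * y * f')) := (hc' _).symm
        _ = c' • (p ^ (j + 1) • w) := by rw [h1]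
        _ = p ^ (j + 1) • (c' • w) := by rw [smul_comm]
  have hNf : ∀ a : G, a ≠ 1 → normElt (ZMod q) a * f' = 0 := by
    intro a ha
    obtain ⟨z, hz⟩ := hN (k + 1) a ha 1
    rw [mul_one, ← hq, zmod_nsmul_eq_zero] at hz
    exact hz
  have hI : ∀ x ∈ fpfIdeal ℤ G, redMod G q x * f' = 0 := by
    intro x hx
    refine fpfIdeal_induction (P := fun x => redMod G q x * f' = 0) ?_ ?_ ?_ ?_ hx
    · intro a ha
      rw [map_normElt]
      exact hNf a ha
    · simp
    · intro x y hx hy
      rw [map_add, add_mul, hx, hy, add_zero]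
    · intro s x hx
      rw [map_mul, mul_assoc, hx, mul_zero]
  have h2 := hI _ hmem
  rw [map_natCast, ← nsmul_eq_mul, hmk, mul_comm, mul_smul] at h2
  have hco' : m'.Coprime q := by
    rw [hq]
    apply Nat.Coprime.pow_right
    rw [Nat.coprime_comm, hp.coprime_iff_not_dvd]
    exact hm'
  obtain ⟨c', hc'⟩ := exists_nsmul_inv (G := G) hco'
  have h3 : p ^ k • f' = 0 := by
    rw [← hc' (p ^ k • f'), h2, smul_zero]
  -- contradiction: `f'` is not divisible by `p`
  obtain ⟨F, rfl⟩ := redMod_surjective G q f'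
  rw [← map_nsmul] at h3
  obtain ⟨z, hz⟩ := redMod_eq_zero h3
  have hFz : F = p • z := by
    ext g
    have this : (p ^ k • F).coeff g = (q • z).coeff g := by rw [hz]
    rw [MonoidAlgebra.coeff_smul_apply, MonoidAlgebra.coeff_smul_apply, nsmul_eq_mul,
      nsmul_eq_mul, hq, pow_succ] at this
    rw [MonoidAlgebra.coeff_smul_apply, nsmul_eq_mul]
    push_cast at this
    have hpk : ((p : ℤ) ^ k) ≠ 0 := pow_ne_zero _ (by exact_mod_cast hp.ne_zero)
    apply mul_left_cancel₀ hpk
    rw [this]; ring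
  apply hf0
  rw [← hf', hπψ, hFz, map_nsmul, zmod_nsmul_eq_zero]

end lifting

section witness

variable {G : Type*} [Group G]

theorem nsmul_eq_zero_monoidAlgebra {R : Type*} [Ring R] [NoZeroDivisors R] [CharZero R] {n : ℕ}
    (hn : n ≠ 0) {x : MonoidAlgebra R G} (h : n • x = 0) : x = 0 := by
  ext g
  have h1 : (n • x).coeff g = 0 := by rw [h]; rfl
  rw [MonoidAlgebra.coeff_smul_apply, nsmul_eq_mul] at h1
  rcases mul_eq_zero.mp h1 with h2 | h2
  · exact absurd (Nat.cast_eq_zero.mp h2) hn
  · exact h2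

theorem mapRingHom_intCast_injective (K : Type*) [Ring K] [CharZero K] :
    Function.Injective (MonoidAlgebra.mapRingHom G (Int.castRingHom K)) := by
  intro x y h
  ext g
  have := congrArg (fun z => z.coeff g) h
  simp only [MonoidAlgebra.coeff_mapRingHom, eq_intCast] at this
  exact Int.cast_injective this

/-- Clearing denominators in the rational group ring. -/
theorem exists_int_nsmul_rat (t : MonoidAlgebra ℚ G) :
    ∃ D : ℕ, D ≠ 0 ∧ ∃ u : MonoidAlgebra ℤ G,
      MonoidAlgebra.mapRingHom G (Int.castRingHom ℚ) u = D • t := by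
  induction t using MonoidAlgebra.induction_linear with
  | zero => exact ⟨1, one_ne_zero, 0, by simp⟩
  | add x y hx hy =>
    obtain ⟨D1, hD1, u1, h1⟩ := hx
    obtain ⟨D2, hD2, u2, h2⟩ := hy
    refine ⟨D1 * D2, mul_ne_zero hD1 hD2, D2 • u1 + D1 • u2, ?_⟩
    rw [map_add, map_nsmul, map_nsmul, h1, h2, smul_add, ← mul_smul, ← mul_smul, mul_comm D2 D1]
  | single g r =>
    refine ⟨r.den, r.den_ne_zero, MonoidAlgebra.single g r.num, ?_⟩
    rw [MonoidAlgebra.mapRingHom_single, MonoidAlgebra.smul_single, nsmul_eq_mul,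
      Rat.den_mul_eq_num]
    rfl

/-- If no non-zero integer lies in the integral ideal, the rational ideal is proper. -/
theorem one_notMem_fpfIdeal_rat
    (hZ : ∀ m : ℕ, m ≠ 0 → (m : MonoidAlgebra ℤ G) ∉ fpfIdeal ℤ G) :
    (1 : MonoidAlgebra ℚ G) ∉ fpfIdeal ℚ G := by
  intro h1
  have key : ∀ y ∈ fpfIdeal ℚ G, ∃ D : ℕ, D ≠ 0 ∧ ∃ x ∈ fpfIdeal ℤ G,
      MonoidAlgebra.mapRingHom G (Int.castRingHom ℚ) x = D • y := by
    intro y hy
    refine fpfIdeal_induction (P := fun y => ∃ D : ℕ, D ≠ 0 ∧ ∃ x ∈ fpfIdeal ℤ G,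
      MonoidAlgebra.mapRingHom G (Int.castRingHom ℚ) x = D • y) ?_ ?_ ?_ ?_ hy
    · intro a ha
      exact ⟨1, one_ne_zero, normElt ℤ a, normElt_mem_fpfIdeal ℤ ha, by
        rw [map_normElt, one_smul]⟩
    · exact ⟨1, one_ne_zero, 0, zero_mem _, by simp⟩
    · rintro x y ⟨D1, hD1, u1, hu1, h1⟩ ⟨D2, hD2, u2, hu2, h2⟩
      refine ⟨D1 * D2, mul_ne_zero hD1 hD2, D2 • u1 + D1 • u2,
        add_mem (nsmul_mem hu1 _) (nsmul_mem hu2 _), ?_⟩
      rw [map_add, map_nsmul, map_nsmul, h1, h2, smul_add, ← mul_smul, ← mul_smul,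
        mul_comm D2 D1]
    · rintro s x ⟨D, hD, u, hu, h⟩
      obtain ⟨E, hE, v, hv⟩ := exists_int_nsmul_rat s
      refine ⟨E * D, mul_ne_zero hE hD, v * u, Ideal.mul_mem_left _ _ hu, ?_⟩
      rw [map_mul, hv, h, smul_mul_assoc, mul_smul_comm, mul_smul]
  obtain ⟨D, hD, x, hx, h⟩ := key 1 h1
  apply hZ D hD
  have : x = (D : MonoidAlgebra ℤ G) := by
    apply mapRingHom_intCast_injective ℚ
    rw [h, map_natCast, nsmul_eq_mul, mul_one]
  rw [← this]; exact hx

/-- The integral witness: a non-zero element of `ℤ[G]` killed on the left by all norm elements. -/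
theorem exists_int_witness_of_lift [Finite G]
    (hZ : ∀ m : ℕ, m ≠ 0 → (m : MonoidAlgebra ℤ G) ∉ fpfIdeal ℤ G) :
    ∃ F : MonoidAlgebra ℤ G, F ≠ 0 ∧ ∀ a : G, a ≠ 1 → normElt ℤ a * F = 0 := by
  have : NeZero (Nat.card G : ℚ) := ⟨by exact_mod_cast Nat.card_pos.ne'⟩
  obtain ⟨f, -, hf0, hfann⟩ := exists_idempotent_of_one_notMem (one_notMem_fpfIdeal_rat hZ)
  obtain ⟨E, hE, F, hF⟩ := exists_int_nsmul_rat f
  refine ⟨F, ?_, ?_⟩
  · rintro rfl
    rw [map_zero] at hF
    exact hf0 (nsmul_eq_zero_monoidAlgebra hE hF.symm)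
  · intro a ha
    apply mapRingHom_intCast_injective ℚ
    rw [map_mul, map_normElt, hF, mul_smul_comm, hfann _ (normElt_mem_fpfIdeal ℚ ha), smul_zero,
      map_zero]

/-- From an integral witness: the ideal is proper over every ring of characteristic zero. -/
theorem one_notMem_fpfIdeal_of_witness_charZero (K : Type*) [Ring K] [CharZero K]
    {F : MonoidAlgebra ℤ G} (hF0 : F ≠ 0) (hF : ∀ a : G, a ≠ 1 → normElt ℤ a * F = 0) :
    (1 : MonoidAlgebra K G) ∉ fpfIdeal K G := by
  intro h1
  have key : ∀ x ∈ fpfIdeal K G,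
      x * MonoidAlgebra.mapRingHom G (Int.castRingHom K) F = 0 := by
    intro x hx
    refine fpfIdeal_induction
      (P := fun x => x * MonoidAlgebra.mapRingHom G (Int.castRingHom K) F = 0) ?_ ?_ ?_ ?_ hx
    · intro a ha
      rw [← map_normElt (Int.castRingHom K) a, ← map_mul, hF a ha, map_zero]
    · simp
    · intro x y hx hy
      rw [add_mul, hx, hy, add_zero]
    · intro s x hx
      rw [mul_assoc, hx, mul_zero]
  have h2 := key 1 h1
  rw [one_mul] at h2
  apply hF0
  apply mapRingHom_intCast_injective K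
  rw [h2, map_zero]

/-- Removing the `ℓ`-part of a witness. -/
theorem exists_witness_not_dvd [Finite G] (ℓ : ℕ) (hℓ : 1 < ℓ) :
    ∀ n : ℕ, ∀ (F : MonoidAlgebra ℤ G) (g₀ : G), (F.coeff g₀).natAbs = n → F.coeff g₀ ≠ 0 →
      (∀ a : G, a ≠ 1 → normElt ℤ a * F = 0) →
      ∃ F₀ : MonoidAlgebra ℤ G, redMod G ℓ F₀ ≠ 0 ∧ ∀ a : G, a ≠ 1 → normElt ℤ a * F₀ = 0 := by
  intro n
  induction n using Nat.strong_induction_on with
  | _ n ih =>
    intro F g₀ hn hg hF
    by_cases h : redMod G ℓ F = 0
    · obtain ⟨z, hz⟩ := redMod_eq_zero h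
      have hc : F.coeff g₀ = ℓ * z.coeff g₀ := by
        rw [hz, MonoidAlgebra.coeff_smul_apply, nsmul_eq_mul]
      have hz0 : z.coeff g₀ ≠ 0 := by
        intro h0
        rw [h0, mul_zero] at hc
        exact hg hc
      have hlt : (z.coeff g₀).natAbs < n := by
        rw [← hn, hc, Int.natAbs_mul, Int.natAbs_natCast]
        have : 0 < (z.coeff g₀).natAbs := Int.natAbs_pos.mpr hz0
        nlinarith
      refine ih _ hlt z g₀ rfl hz0 ?_
      intro a ha
      apply nsmul_eq_zero_monoidAlgebra (n := ℓ) (by omega)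
      rw [← mul_smul_comm, ← hz, hF a ha]
    · exact ⟨F, h, hF⟩

/-- From an integral witness: the ideal is proper over `ZMod ℓ` for every prime `ℓ`. -/
theorem one_notMem_fpfIdeal_zmod_of_witness [Finite G] {ℓ : ℕ} (hℓ : 1 < ℓ)
    {F : MonoidAlgebra ℤ G} (hF0 : F ≠ 0) (hF : ∀ a : G, a ≠ 1 → normElt ℤ a * F = 0) :
    (1 : MonoidAlgebra (ZMod ℓ) G) ∉ fpfIdeal (ZMod ℓ) G := by
  intro h1
  have hex : ∃ g₀ : G, F.coeff g₀ ≠ 0 := by
    by_contra hcon
    push Not at hcon
    apply hF0
    ext g
    rw [hcon g]; rfl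
  obtain ⟨g₀, hg₀⟩ := hex
  obtain ⟨F₀, hF₀, hF₀'⟩ := exists_witness_not_dvd ℓ hℓ _ F g₀ rfl hg₀ hF
  have key : ∀ x ∈ fpfIdeal (ZMod ℓ) G, x * redMod G ℓ F₀ = 0 := by
    intro x hx
    refine fpfIdeal_induction (P := fun x => x * redMod G ℓ F₀ = 0) ?_ ?_ ?_ ?_ hx
    · intro a ha
      rw [← map_normElt (Int.castRingHom (ZMod ℓ)) a, ← map_mul, hF₀' a ha, map_zero]
    · simp
    · intro x y hx hy
      rw [add_mul, hx, hy, add_zero]
    · intro s x hx
      rw [mul_assoc, hx, mul_zero]
  have h2 := key 1 h1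
  rw [one_mul] at h2
  exact hF₀ h2

end witness

section action

variable {G V : Type*} [Group G] [CommGroup V]

theorem exists_mem_fpfIdeal_int_redMod {n : ℕ} {y : MonoidAlgebra (ZMod n) G}
    (hy : y ∈ fpfIdeal (ZMod n) G) : ∃ x ∈ fpfIdeal ℤ G, redMod G n x = y := by
  refine fpfIdeal_induction (P := fun y => ∃ x ∈ fpfIdeal ℤ G, redMod G n x = y) ?_ ?_ ?_ ?_ hy
  · intro a ha
    exact ⟨normElt ℤ a, normElt_mem_fpfIdeal ℤ ha, map_normElt _ a⟩
  · exact ⟨0, zero_mem _, map_zero _⟩
  · rintro x y ⟨u, hu, rfl⟩ ⟨v, hv, rfl⟩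
    exact ⟨u + v, add_mem hu hv, map_add _ _ _⟩
  · rintro s x ⟨u, hu, rfl⟩
    obtain ⟨s', rfl⟩ := redMod_surjective G n s
    exact ⟨s' * u, Ideal.mul_mem_left _ _ hu, map_mul _ _ _⟩

/-- An action by automorphisms on a commutative group, as a monoid homomorphism into the
endomorphism ring of the additive version. -/
noncomputable def actEnd (φ : G →* MulAut V) : G →* AddMonoid.End (Additive V) where
  toFun g :=
    { toFun := fun w => Additive.ofMul (φ g (Additive.toMul w))
      map_zero' := by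
        show Additive.ofMul (φ g 1) = Additive.ofMul 1
        rw [map_one]
      map_add' := fun x y => by
        show Additive.ofMul (φ g (Additive.toMul x * Additive.toMul y)) = _
        rw [map_mul]; rfl }
  map_one' := by
    apply AddMonoidHom.ext
    intro w
    show Additive.ofMul ((φ 1) (Additive.toMul w)) = w
    rw [map_one]; rfl
  map_mul' a b := by
    apply AddMonoidHom.ext
    intro w
    show Additive.ofMul ((φ (a * b)) (Additive.toMul w)) =
      Additive.ofMul (φ a (φ b (Additive.toMul w)))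
    rw [map_mul]; rfl

theorem actEnd_apply (φ : G →* MulAut V) (g : G) (w : Additive V) :
    actEnd φ g w = Additive.ofMul (φ g (Additive.toMul w)) := rfl

/-- The integral group ring acting on `Additive V`. -/
noncomputable def actLift (φ : G →* MulAut V) :
    MonoidAlgebra ℤ G →ₐ[ℤ] AddMonoid.End (Additive V) :=
  MonoidAlgebra.lift ℤ (AddMonoid.End (Additive V)) G (actEnd φ)

theorem actLift_normElt [Finite G] (φ : G →* MulAut V)
    (hfpf : ∀ a : G, a ≠ 1 → ∀ v : V, φ a v = v → v = 1) {a : G} (ha : a ≠ 1) :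
    actLift φ (normElt ℤ a) = 0 := by
  have h := congrArg (actLift φ) (of_mul_normElt ℤ a)
  rw [map_mul] at h
  have h' : actEnd φ a * actLift φ (normElt ℤ a) = actLift φ (normElt ℤ a) := by
    rw [← h]
    congr 1
    exact (MonoidAlgebra.lift_of _ _).symm
  apply AddMonoidHom.ext
  intro w
  have h2 := DFunLike.congr_fun h' w
  change actEnd φ a (actLift φ (normElt ℤ a) w) = actLift φ (normElt ℤ a) w at h2
  rw [actEnd_apply] at h2
  have h3 := hfpf a ha _ (Additive.ofMul.injective h2)
  exact Additive.toMul.injective h3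

theorem actLift_eq_zero_of_mem [Finite G] (φ : G →* MulAut V)
    (hfpf : ∀ a : G, a ≠ 1 → ∀ v : V, φ a v = v → v = 1) {x : MonoidAlgebra ℤ G}
    (hx : x ∈ fpfIdeal ℤ G) : actLift φ x = 0 := by
  refine fpfIdeal_induction (P := fun x => actLift φ x = 0) ?_ ?_ ?_ ?_ hx
  · intro a ha
    exact actLift_normElt φ hfpf ha
  · simp
  · intro x y hx hy
    rw [map_add, hx, hy, add_zero]
  · intro s x hx
    rw [map_mul, hx, mul_zero]

/-- A fixed-point-free action on a finite commutative group of order divisible by `p` makes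
the ideal over `ZMod p` proper. -/
theorem one_notMem_fpfIdeal_zmod_of_fpf [Finite G] [Finite V] (φ : G →* MulAut V)
    (hfpf : ∀ a : G, a ≠ 1 → ∀ v : V, φ a v = v → v = 1) {p : ℕ} (hp : p.Prime)
    (hpV : p ∣ Nat.card V) : (1 : MonoidAlgebra (ZMod p) G) ∉ fpfIdeal (ZMod p) G := by
  intro h1
  obtain ⟨x, hx, hx1⟩ := exists_mem_fpfIdeal_int_redMod h1
  have hx0 : actLift φ x = 0 := actLift_eq_zero_of_mem φ hfpf hx
  have h0 : redMod G p (1 - x) = 0 := by rw [map_sub, map_one, hx1, sub_self]
  obtain ⟨z, hz⟩ := redMod_eq_zero h0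
  have hΘ : (1 : AddMonoid.End (Additive V)) = p • actLift φ z := by
    have := congrArg (actLift φ) hz
    rw [map_sub, map_one, hx0, sub_zero, map_nsmul] at this
    exact this
  have : Fact p.Prime := ⟨hp⟩
  obtain ⟨v, hv⟩ := exists_prime_orderOf_dvd_card' p hpV
  have hv1 : v ≠ 1 := by
    rintro rfl
    rw [orderOf_one] at hv
    exact hp.one_lt.ne hv
  have h2 : Additive.ofMul v = p • (actLift φ z (Additive.ofMul v)) := by
    have := DFunLike.congr_fun hΘ (Additive.ofMul v)
    simpa using this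
  rw [← map_nsmul, ← ofMul_pow, ← hv, pow_orderOf_eq_one, ofMul_one, map_zero] at h2
  exact hv1 (Additive.ofMul.injective h2)

/-- **Integral witness for a fixed-point-free action**: if `G` acts without fixed points on a
non-trivial finite commutative group of order prime to `|G|`, there is a non-zero element of
`ℤ[G]` killed on the left by the norm elements of all non-identity elements. -/
theorem exists_int_witness [Finite G] [Finite V] [Nontrivial V] (φ : G →* MulAut V)
    (hfpf : ∀ a : G, a ≠ 1 → ∀ v : V, φ a v = v → v = 1)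
    (hcop : (Nat.card V).Coprime (Nat.card G)) :
    ∃ F : MonoidAlgebra ℤ G, F ≠ 0 ∧ ∀ a : G, a ≠ 1 → normElt ℤ a * F = 0 := by
  have hV : Nat.card V ≠ 1 := by
    have := Finite.one_lt_card (α := V)
    omega
  obtain ⟨p, hp, hpV⟩ := Nat.exists_prime_and_dvd hV
  have hpG : ¬ p ∣ Nat.card G :=
    hp.coprime_iff_not_dvd.mp (Nat.Coprime.coprime_dvd_left hpV hcop)
  exact exists_int_witness_of_lift
    (natCast_notMem_fpfIdeal_int hp hpG (one_notMem_fpfIdeal_zmod_of_fpf φ hfpf hp hpV))

/-- Version of `exists_int_witness` for a group `V` with a commutativity hypothesis. -/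
theorem exists_int_witness' {G V : Type*} [Group G] [Finite G] [Group V] [Finite V]
    [Nontrivial V] (hV : ∀ x y : V, x * y = y * x) (φ : G →* MulAut V)
    (hfpf : ∀ a : G, a ≠ 1 → ∀ v : V, φ a v = v → v = 1)
    (hcop : (Nat.card V).Coprime (Nat.card G)) :
    ∃ F : MonoidAlgebra ℤ G, F ≠ 0 ∧ ∀ a : G, a ≠ 1 → normElt ℤ a * F = 0 := by
  let _ : CommGroup V := { ‹Group V› with mul_comm := hV }
  exact exists_int_witness φ hfpf hcop

end action

section quotient

variable {G : Type*} [Group G] {k : Type*} [CommRing k]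

/-- Norm elements act as zero on any quotient of the group ring by a left ideal containing
`fpfIdeal`. -/
theorem normElt_smul_quotient {I : Submodule (MonoidAlgebra k G) (MonoidAlgebra k G)}
    (hI : fpfIdeal k G ≤ I) {a : G} (ha : a ≠ 1) (v : MonoidAlgebra k G ⧸ I) :
    normElt k a • v = 0 := by
  obtain ⟨y, rfl⟩ := Submodule.Quotient.mk_surjective I v
  rw [← Submodule.Quotient.mk_smul, Submodule.Quotient.mk_eq_zero, smul_eq_mul]
  exact hI (mul_mem_fpfIdeal (normElt_mem_fpfIdeal k ha) y)

/-- If a group element fixes a vector killed by its norm element, the order of the element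
kills the vector. -/
theorem orderOf_nsmul_eq_zero_of_fixed {M : Type*} [AddCommGroup M]
    [Module (MonoidAlgebra k G) M] {a : G} {v : M} (hN : normElt k a • v = 0)
    (hfix : MonoidAlgebra.of k G a • v = v) : orderOf a • v = 0 := by
  have hpow : ∀ i : ℕ, MonoidAlgebra.of k G (a ^ i) • v = v := by
    intro i
    induction i with
    | zero => rw [pow_zero, map_one, one_smul]
    | succ i ih => rw [pow_succ, map_mul, mul_smul, hfix, ih]
  rw [← hN, normElt, Finset.sum_smul, Finset.sum_congr rfl (fun i _ => hpow i),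
    Finset.sum_const, Finset.card_range]

end quotient

end Cfsg.Agent.Lib.Helper71
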