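import Mathlib
import Cfsg.Agent.Lib.Helper71.FpfCore
import Cfsg.Agent.Lib.Helper71.Frob

/-!
Integral witnesses (`F ≠ 0` in `ℤ[G]` killed on the left by all norm elements):
* a witness for `A` and one for `B` give one for `A × B` when the orders are coprime;
* a group with a witness is a Frobenius complement.
-/

set_option autoImplicit false

namespace Cfsg.Agent.Lib.Helper71

open MonoidAlgebra

section pow

variable {G : Type*} [Group G]

theorem normElt_mul_of_pow (R : Type*) [Semiring R] [Finite G] (a : G) (i : ℕ) :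
    normElt R a * MonoidAlgebra.of R G (a ^ i) = normElt R a := by
  rw [normElt_mul_of]
  have : (a ^ i)⁻¹ * a * a ^ i = a := by
    rw [mul_assoc, ← pow_succ', pow_succ, ← mul_assoc, inv_mul_cancel, one_mul]
  rw [this, of_pow_mul_normElt]

/-- If the norm element of a power of `g` kills `F`, so does the norm element of `g`. -/
theorem normElt_mul_eq_zero_of_pow [Finite G] {F : MonoidAlgebra ℤ G} (g : G) (m : ℕ)
    (h : normElt ℤ (g ^ m) * F = 0) : normElt ℤ g * F = 0 := by
  have hu : normElt ℤ (g ^ m) =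
      ∑ j ∈ Finset.range (orderOf (g ^ m)), MonoidAlgebra.of ℤ G ((g ^ m) ^ j) := rfl
  have key : ∀ j : ℕ, normElt ℤ g * MonoidAlgebra.of ℤ G ((g ^ m) ^ j) = normElt ℤ g := by
    intro j
    rw [← pow_mul]
    exact normElt_mul_of_pow ℤ g (m * j)
  have h1 : normElt ℤ g * normElt ℤ (g ^ m) = orderOf (g ^ m) • normElt ℤ g := by
    rw [hu, Finset.mul_sum, Finset.sum_congr rfl (fun j _ => key j), Finset.sum_const,
      Finset.card_range]
  apply nsmul_eq_zero_monoidAlgebra (n := orderOf (g ^ m)) (orderOf_pos _).ne'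
  rw [← smul_mul_assoc, ← h1, mul_assoc, h, mul_zero]

end pow

section prod

variable {A B : Type*} [Group A] [Group B]

/-- The inclusion of `ℤ[A]` in `ℤ[A × B]`. -/
noncomputable abbrev incl₁ (A B : Type*) [Group A] [Group B] :
    MonoidAlgebra ℤ A →+* MonoidAlgebra ℤ (A × B) :=
  MonoidAlgebra.mapDomainRingHom ℤ (MonoidHom.inl A B)

/-- The inclusion of `ℤ[B]` in `ℤ[A × B]`. -/
noncomputable abbrev incl₂ (A B : Type*) [Group A] [Group B] :
    MonoidAlgebra ℤ B →+* MonoidAlgebra ℤ (A × B) :=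
  MonoidAlgebra.mapDomainRingHom ℤ (MonoidHom.inr A B)

theorem incl₁_single (a : A) (r : ℤ) :
    incl₁ A B (MonoidAlgebra.single a r) = MonoidAlgebra.single (a, 1) r := by
  simp [MonoidAlgebra.mapDomain_single]

theorem incl₂_single (b : B) (r : ℤ) :
    incl₂ A B (MonoidAlgebra.single b r) = MonoidAlgebra.single (1, b) r := by
  simp [MonoidAlgebra.mapDomain_single]

theorem incl₁_normElt (a : A) : incl₁ A B (normElt ℤ a) = normElt ℤ ((a, 1) : A × B) := by
  have ho : orderOf ((a, 1) : A × B) = orderOf a := by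
    rw [Prod.orderOf]; simp
  unfold normElt
  rw [map_sum, ho]
  apply Finset.sum_congr rfl
  intro i _
  rw [MonoidAlgebra.of_apply, incl₁_single, MonoidAlgebra.of_apply, Prod.pow_mk, one_pow]

theorem incl₂_normElt (b : B) : incl₂ A B (normElt ℤ b) = normElt ℤ ((1, b) : A × B) := by
  have ho : orderOf ((1, b) : A × B) = orderOf b := by
    rw [Prod.orderOf]; simp
  unfold normElt
  rw [map_sum, ho]
  apply Finset.sum_congr rfl
  intro i _
  rw [MonoidAlgebra.of_apply, incl₂_single, MonoidAlgebra.of_apply, Prod.pow_mk, one_pow]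

theorem incl_commute (x : MonoidAlgebra ℤ A) (y : MonoidAlgebra ℤ B) :
    incl₁ A B x * incl₂ A B y = incl₂ A B y * incl₁ A B x := by
  induction x using MonoidAlgebra.induction_linear with
  | zero => simp
  | add x x' hx hx' => rw [map_add, add_mul, mul_add, hx, hx']
  | single a r =>
    induction y using MonoidAlgebra.induction_linear with
    | zero => simp
    | add y y' hy hy' => rw [map_add, add_mul, mul_add, hy, hy']
    | single b s =>
      rw [incl₁_single, incl₂_single, MonoidAlgebra.single_mul_single,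
        MonoidAlgebra.single_mul_single]
      simp [mul_comm]

theorem coeff_incl_mul (x : MonoidAlgebra ℤ A) (y : MonoidAlgebra ℤ B) (a : A) (b : B) :
    (incl₁ A B x * incl₂ A B y).coeff (a, b) = x.coeff a * y.coeff b := by
  classical
  induction x using MonoidAlgebra.induction_linear with
  | zero => simp
  | add x x' hx hx' =>
    rw [map_add, add_mul, MonoidAlgebra.coeff_add, Finsupp.add_apply, hx, hx',
      MonoidAlgebra.coeff_add, Finsupp.add_apply, add_mul]
  | single a' r =>
    induction y using MonoidAlgebra.induction_linear with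
    | zero => simp
    | add y y' hy hy' =>
      rw [map_add, mul_add, MonoidAlgebra.coeff_add, Finsupp.add_apply, hy, hy',
        MonoidAlgebra.coeff_add, Finsupp.add_apply, mul_add]
    | single b' s =>
      rw [incl₁_single, incl₂_single, MonoidAlgebra.single_mul_single,
        MonoidAlgebra.coeff_single, MonoidAlgebra.coeff_single, MonoidAlgebra.coeff_single,
        Finsupp.single_apply, Finsupp.single_apply, Finsupp.single_apply]
      simp only [Prod.mk_mul_mk, mul_one, one_mul, Prod.mk.injEq]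
      by_cases h1 : a' = a <;> by_cases h2 : b' = b <;> simp [h1, h2]

/-- Witnesses for groups of coprime orders give a witness for the product. -/
theorem exists_int_witness_prod [Finite A] [Finite B]
    (hcop : (Nat.card A).Coprime (Nat.card B))
    {FA : MonoidAlgebra ℤ A} (hFA0 : FA ≠ 0) (hFA : ∀ a : A, a ≠ 1 → normElt ℤ a * FA = 0)
    {FB : MonoidAlgebra ℤ B} (hFB0 : FB ≠ 0) (hFB : ∀ b : B, b ≠ 1 → normElt ℤ b * FB = 0) :
    ∃ F : MonoidAlgebra ℤ (A × B), F ≠ 0 ∧ ∀ g : A × B, g ≠ 1 → normElt ℤ g * F = 0 := by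
  refine ⟨incl₁ A B FA * incl₂ A B FB, ?_, ?_⟩
  · obtain ⟨a₀, ha₀⟩ : ∃ a, FA.coeff a ≠ 0 := by
      by_contra h
      push Not at h
      exact hFA0 (by ext a; rw [h a]; rfl)
    obtain ⟨b₀, hb₀⟩ : ∃ b, FB.coeff b ≠ 0 := by
      by_contra h
      push Not at h
      exact hFB0 (by ext b; rw [h b]; rfl)
    intro h
    have h2 := coeff_incl_mul FA FB a₀ b₀
    rw [h] at h2
    exact mul_ne_zero ha₀ hb₀ h2.symm
  · rintro ⟨a, b⟩ hg
    by_cases ha : a = 1
    · subst ha
      have hb : b ≠ 1 := by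
        rintro rfl
        exact hg rfl
      rw [← incl₂_normElt, ← mul_assoc, ← incl_commute, mul_assoc, ← map_mul, hFB b hb,
        map_zero, mul_zero]
    · apply normElt_mul_eq_zero_of_pow (a, b) (orderOf b)
      have hpow : ((a, b) : A × B) ^ orderOf b = (a ^ orderOf b, 1) := by
        rw [Prod.pow_mk, pow_orderOf_eq_one]
      have ha' : a ^ orderOf b ≠ 1 := by
        intro h
        have h1 : orderOf a ∣ orderOf b := orderOf_dvd_of_pow_eq_one h
        have h2 : orderOf a ∣ Nat.card A := orderOf_dvd_natCard a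
        have h3 : orderOf b ∣ Nat.card B := orderOf_dvd_natCard b
        have h4 : orderOf a = 1 := Nat.eq_one_of_dvd_coprimes hcop h2 (h1.trans h3)
        exact ha (orderOf_eq_one_iff.mp h4)
      rw [hpow, ← incl₁_normElt, ← mul_assoc, ← map_mul, hFA _ ha', map_zero, zero_mul]

end prod

section converse

/-- A nontrivial finite group whose integral group ring has a witness is a Frobenius
complement: it acts without fixed points on a quotient of the group ring over `ZMod ℓ`. -/
theorem exists_frobeniusComplement_of_witness {G : Type*} [Group G] [Finite G] [Nontrivial G]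
    {F : MonoidAlgebra ℤ G} (hF0 : F ≠ 0) (hF : ∀ a : G, a ≠ 1 → normElt ℤ a * F = 0) :
    ∃ (L : Type) (_ : Group L) (_ : Finite L) (C : Subgroup L),
      Cfsg.IsFrobeniusComplement C ∧ Nonempty (G ≃* C) := by
  obtain ⟨ℓ, hℓge, hℓ⟩ := Nat.exists_infinite_primes (Nat.card G + 1)
  have : Fact ℓ.Prime := ⟨hℓ⟩
  have hℓG : ¬ ℓ ∣ Nat.card G := by
    intro h
    have := Nat.le_of_dvd Nat.card_pos h
    omega
  have h1 : (1 : MonoidAlgebra (ZMod ℓ) G) ∉ fpfIdeal (ZMod ℓ) G :=
    one_notMem_fpfIdeal_zmod_of_witness hℓ.one_lt hF0 hF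
  have hfinR : Finite (MonoidAlgebra (ZMod ℓ) G) := by
    have : Finite (G →₀ ZMod ℓ) := Finite.of_equiv _ Finsupp.equivFunOnFinite.symm
    exact Finite.of_equiv _ MonoidAlgebra.coeffEquiv.symm
  let I : Submodule (MonoidAlgebra (ZMod ℓ) G) (MonoidAlgebra (ZMod ℓ) G) := fpfIdeal (ZMod ℓ) G
  have hI : I < ⊤ := lt_top_iff_ne_top.mpr ((Ideal.ne_top_iff_one _).mpr h1)
  have hnt : Nontrivial (MonoidAlgebra (ZMod ℓ) G ⧸ I) :=
    Submodule.Quotient.nontrivial_iff.mpr hI.ne
  have hfinV : Finite (MonoidAlgebra (ZMod ℓ) G ⧸ I) :=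
    Finite.of_surjective _ (Submodule.Quotient.mk_surjective I)
  let ψ : G →* (MonoidAlgebra (ZMod ℓ) G)ˣ := (MonoidAlgebra.of (ZMod ℓ) G).toHomUnits
  apply exists_frobeniusComplement_of_fpf_module (N := MonoidAlgebra (ZMod ℓ) G ⧸ I) ψ
  intro h hh n hn
  have hn' : MonoidAlgebra.of (ZMod ℓ) G h • n = n := hn
  have hN : normElt (ZMod ℓ) h • n = 0 := normElt_smul_quotient (le_refl _) hh n
  have h2 : orderOf h • n = 0 := orderOf_nsmul_eq_zero_of_fixed hN hn'
  have h3 : ℓ • n = 0 := by
    obtain ⟨y, rfl⟩ := Submodule.Quotient.mk_surjective I n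
    rw [← Submodule.Quotient.mk_smul, zmod_nsmul_eq_zero, Submodule.Quotient.mk_zero]
  have h4 : addOrderOf n ∣ Nat.gcd (orderOf h) ℓ :=
    Nat.dvd_gcd (addOrderOf_dvd_of_nsmul_eq_zero h2) (addOrderOf_dvd_of_nsmul_eq_zero h3)
  have h5 : Nat.gcd (orderOf h) ℓ = 1 := by
    rw [Nat.gcd_comm]
    exact (hℓ.coprime_iff_not_dvd).mpr (fun hd => hℓG (hd.trans (orderOf_dvd_natCard h)))
  rw [h5, Nat.dvd_one] at h4
  exact AddMonoid.addOrderOf_eq_one_iff.mp h4

end converse

end Cfsg.Agent.Lib.Helper71
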