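import Mathlib
import Cfsg.Agent.Lib.Helper71.FpfCore

/-!
From an integral witness to a faithful irreducible fixed-point-free matrix representation over
any field of characteristic zero.
-/

set_option autoImplicit false

namespace Cfsg.Agent.Lib.Helper71

open MonoidAlgebra

/-- An irreducible fixed-point-free representation on a non-zero finite-dimensional space, written
in matrices with respect to a basis. -/
theorem exists_gl_of_rep {K : Type*} [Field K] {G : Type*} [Group G] {V : Type*}
    [AddCommGroup V] [Module K V] [FiniteDimensional K V] [Nontrivial V]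
    (ρ : Representation K G V)
    (hirr : ∀ W : Submodule K V, (∀ g : G, ∀ w ∈ W, ρ g w ∈ W) → W = ⊥ ∨ W = ⊤)
    (hfpf : ∀ g : G, g ≠ 1 → ∀ v : V, ρ g v = v → v = 0) :
    ∃ (n : ℕ) (σ : G →* GL (Fin n) K), 0 < n ∧ Function.Injective σ ∧
      (∀ W : Submodule K (Fin n → K),
        (∀ g : G, ∀ w ∈ W,
          ((σ g : GL (Fin n) K) : Matrix (Fin n) (Fin n) K).mulVec w ∈ W) → W = ⊥ ∨ W = ⊤) ∧
      ∀ g : G, g ≠ 1 → ∀ v : Fin n → K,
        ((σ g : GL (Fin n) K) : Matrix (Fin n) (Fin n) K).mulVec v = v → v = 0 := by
  classical
  let b := Module.finBasis K V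
  let E : V ≃ₗ[K] (Fin (Module.finrank K V) → K) := b.equivFun
  let M : G →* Matrix (Fin (Module.finrank K V)) (Fin (Module.finrank K V)) K :=
    ((LinearMap.toMatrixAlgEquiv b : Module.End K V ≃ₐ[K] _) : Module.End K V →* _).comp ρ
  let σ : G →* GL (Fin (Module.finrank K V)) K := M.toHomUnits
  have key : ∀ (g : G) (x : V),
      ((σ g : GL (Fin (Module.finrank K V)) K) : Matrix _ _ K).mulVec (E x) = E (ρ g x) := by
    intro g x
    have h1 : ((σ g : GL (Fin (Module.finrank K V)) K) : Matrix _ _ K) =
        LinearMap.toMatrix b b (ρ g) := rfl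
    rw [h1]
    exact LinearMap.toMatrix_mulVec_repr b b (ρ g) x
  refine ⟨Module.finrank K V, σ, Module.finrank_pos, ?_, ?_, ?_⟩
  · rw [injective_iff_map_eq_one]
    intro g hg
    by_contra hg1
    obtain ⟨x, hx⟩ := exists_ne (0 : V)
    apply hx
    apply hfpf g hg1 x
    apply E.injective
    rw [← key, hg]
    simp
  · intro W hW
    have hW' : ∀ g : G, ∀ w ∈ W.comap E.toLinearMap, ρ g w ∈ W.comap E.toLinearMap := by
      intro g w hw
      rw [Submodule.mem_comap] at hw ⊢
      have := hW g _ hw
      rw [LinearEquiv.coe_coe, key] at this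
      exact this
    rcases hirr _ hW' with h | h
    · left
      rw [Submodule.eq_bot_iff]
      intro w hw
      have : E.symm w ∈ W.comap E.toLinearMap := by
        rw [Submodule.mem_comap]
        simpa using hw
      rw [h, Submodule.mem_bot] at this
      simpa using congrArg E this
    · right
      rw [Submodule.eq_top_iff']
      intro w
      have : E.symm w ∈ W.comap E.toLinearMap := by rw [h]; trivial
      rw [Submodule.mem_comap] at this
      simpa using this
  · intro g hg v hv
    have h1 : E (ρ g (E.symm v)) = E (E.symm v) := by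
      rw [← key]
      simpa using hv
    have h2 := hfpf g hg _ (E.injective h1)
    simpa using congrArg E h2

/-- From an integral witness: a faithful irreducible fixed-point-free matrix representation over
any field of characteristic zero. -/
theorem exists_fpf_gl_of_witness (K : Type*) [Field K] [CharZero K] {G : Type*} [Group G]
    [Finite G] {F : MonoidAlgebra ℤ G} (hF0 : F ≠ 0)
    (hF : ∀ a : G, a ≠ 1 → normElt ℤ a * F = 0) :
    ∃ (n : ℕ) (σ : G →* GL (Fin n) K), 0 < n ∧ Function.Injective σ ∧
      (∀ W : Submodule K (Fin n → K),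
        (∀ g : G, ∀ w ∈ W,
          ((σ g : GL (Fin n) K) : Matrix (Fin n) (Fin n) K).mulVec w ∈ W) → W = ⊥ ∨ W = ⊤) ∧
      ∀ g : G, g ≠ 1 → ∀ v : Fin n → K,
        ((σ g : GL (Fin n) K) : Matrix (Fin n) (Fin n) K).mulVec v = v → v = 0 := by
  have h1 : (1 : MonoidAlgebra K G) ∉ fpfIdeal K G :=
    one_notMem_fpfIdeal_of_witness_charZero K hF0 hF
  obtain ⟨m, hmax, hle⟩ := Ideal.exists_le_maximal (fpfIdeal K G) ((Ideal.ne_top_iff_one _).mpr h1)
  let I : Submodule (MonoidAlgebra K G) (MonoidAlgebra K G) := m
  have hsimple : IsSimpleModule (MonoidAlgebra K G) (MonoidAlgebra K G ⧸ I) :=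
    isSimpleModule_iff_isCoatom.mpr hmax.out
  have hnt : Nontrivial (MonoidAlgebra K G ⧸ I) :=
    Submodule.Quotient.nontrivial_iff.mpr hmax.ne_top
  have hfinA : Module.Finite K (MonoidAlgebra K G) :=
    Module.Finite.equiv (MonoidAlgebra.coeffLinearEquiv K).symm
  have hfinV : Module.Finite K (MonoidAlgebra K G ⧸ I) :=
    Module.Finite.of_surjective ((I.mkQ).restrictScalars K) (Submodule.mkQ_surjective I)
  let ρ : Representation K G (MonoidAlgebra K G ⧸ I) :=
    { toFun := fun g =>
        { toFun := fun v => MonoidAlgebra.of K G g • v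
          map_add' := smul_add _
          map_smul' := fun c v => smul_comm _ c v }
      map_one' := by
        apply LinearMap.ext
        intro v
        show MonoidAlgebra.of K G 1 • v = v
        rw [map_one, one_smul]
      map_mul' := fun a b => by
        apply LinearMap.ext
        intro v
        show MonoidAlgebra.of K G (a * b) • v =
          MonoidAlgebra.of K G a • (MonoidAlgebra.of K G b • v)
        rw [map_mul, mul_smul] }
  have hρ : ∀ (g : G) (v : MonoidAlgebra K G ⧸ I), ρ g v = MonoidAlgebra.of K G g • v :=
    fun _ _ => rfl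
  apply exists_gl_of_rep ρ
  · intro W hW
    let W₂ : Submodule (MonoidAlgebra K G) (MonoidAlgebra K G ⧸ I) :=
      { carrier := W
        add_mem' := W.add_mem
        zero_mem' := W.zero_mem
        smul_mem' := by
          intro x w hw
          induction x using MonoidAlgebra.induction_on with
          | of g => exact hW g w hw
          | add x y hx hy => rw [add_smul]; exact W.add_mem hx hy
          | smul r x hx => rw [smul_assoc]; exact W.smul_mem r hx }
    rcases eq_bot_or_eq_top W₂ with h | h
    · left
      rw [Submodule.eq_bot_iff]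
      intro w hw
      have : w ∈ W₂ := hw
      rw [h, Submodule.mem_bot] at this
      exact this
    · right
      rw [Submodule.eq_top_iff']
      intro w
      have : w ∈ W₂ := by rw [h]; trivial
      exact this
  · intro g hg v hv
    rw [hρ] at hv
    have hN : normElt K g • v = 0 := normElt_smul_quotient hle hg v
    have h2 : orderOf g • v = 0 := orderOf_nsmul_eq_zero_of_fixed hN hv
    rw [← Nat.cast_smul_eq_nsmul K] at h2
    rcases smul_eq_zero.mp h2 with h3 | h3
    · exact absurd h3 (Nat.cast_ne_zero.mpr (orderOf_pos g).ne')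
    · exact h3

end Cfsg.Agent.Lib.Helper71
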