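import Mathlib
import Cfsg.Prelude.Def_Characters
import Cfsg.Agent.Lib.Helper3.CharDecomp

set_option autoImplicit false
set_option linter.style.haveILetI false
set_option linter.unusedSectionVars false

namespace Cfsg.Agent.Lib.Helper71.Split

open Representation Module
open Cfsg.Agent.Lib.Helper3

universe u

variable {G : Type u} [Group G]
variable {K : Type} [Field K] (φ : K →+* ℂ)

/-- The complexified character of a representation over `K`. -/
noncomputable def cx {V : Type u} [AddCommGroup V] [Module K V] [FiniteDimensional K V]
    (τ : Representation K G V) : G → ℂ :=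
  fun g => φ (τ.character g)

include φ in
theorem card_ne_zero_K [Finite G] : (Nat.card G : K) ≠ 0 := by
  intro h
  have h2 := congrArg φ h
  rw [map_natCast, map_zero] at h2
  exact (Nat.cast_ne_zero.mpr Nat.card_pos.ne') h2

section pairing

variable [Fintype G]
variable {V U : Type u} [AddCommGroup V] [Module K V] [FiniteDimensional K V]
  [AddCommGroup U] [Module K U] [FiniteDimensional K U]

theorem pair_cx (τ : Representation K G V) (σ : Representation K G U) :
    pair (cx φ σ) (cx φ τ) = (Module.finrank K (IntertwiningMap τ σ) : ℂ) := by
  have hne : (Nat.card G : K) ≠ 0 := card_ne_zero_K φ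
  haveI : Invertible (Nat.card G : K) := invertibleOfNonzero hne
  have h := card_inv_mul_sum_char_mul_char_eq_finrank τ σ
  have h2 := congrArg φ h
  rw [map_mul, map_inv₀, map_natCast, map_sum, map_natCast] at h2
  unfold pair cx
  rw [← h2]
  congr 1
  refine Finset.sum_congr rfl (fun g _ => ?_)
  rw [map_mul]

end pairing

section division

variable {V U : Type u} [AddCommGroup V] [Module K V] [FiniteDimensional K V]
  [AddCommGroup U] [Module K U] [FiniteDimensional K U]

/-- The underlying linear map, as a linear map. -/
def toLinL (τ : Representation K G V) (σ : Representation K G U) :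
    IntertwiningMap τ σ →ₗ[K] (V →ₗ[K] U) where
  toFun f := f.toLinearMap
  map_add' _ _ := rfl
  map_smul' _ _ := rfl

theorem toLinL_injective (τ : Representation K G V) (σ : Representation K G U) :
    Function.Injective (toLinL τ σ) := by
  intro f g h
  exact IntertwiningMap.ext h

instance finite_intertwining (τ : Representation K G V) (σ : Representation K G U) :
    Module.Finite K (IntertwiningMap τ σ) :=
  Module.Finite.of_injective (toLinL τ σ) (toLinL_injective τ σ)

theorem injective_of_ne_zero {τ : Representation K G V} {σ : Representation K G U}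
    [τ.IsIrreducible] (f : IntertwiningMap τ σ) (hf : f ≠ 0) : Function.Injective f := by
  have h := (IsSimpleOrder.eq_bot_or_eq_top f.ker)
  rcases h with h | h
  · rw [injective_iff_map_eq_zero]
    intro v hv
    have h1 : v ∈ f.ker := (IntertwiningMap.mem_ker _ _ f v).mpr hv
    rw [h] at h1
    exact h1
  · exfalso
    apply hf
    apply IntertwiningMap.ext
    apply LinearMap.ext
    intro v
    have h1 : v ∈ f.ker := by rw [h]; trivial
    exact (IntertwiningMap.mem_ker _ _ f v).mp h1

/-- Right composition with an endomorphism, as a linear map. -/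
noncomputable def compR (τ : Representation K G V) (σ : Representation K G U)
    (h : IntertwiningMap τ σ) : IntertwiningMap τ τ →ₗ[K] IntertwiningMap τ σ :=
  IntertwiningMap.llcomp τ τ σ h

theorem compR_apply (τ : Representation K G V) (σ : Representation K G U)
    (h : IntertwiningMap τ σ) (ψ : IntertwiningMap τ τ) (v : V) :
    compR τ σ h ψ v = h (ψ v) := rfl

theorem compR_add (τ : Representation K G V) (σ : Representation K G U)
    (h₁ h₂ : IntertwiningMap τ σ) (ψ : IntertwiningMap τ τ) :
    compR τ σ (h₁ + h₂) ψ = compR τ σ h₁ ψ + compR τ σ h₂ ψ := by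
  apply IntertwiningMap.ext
  apply LinearMap.ext
  intro v
  rfl

theorem compR_zero (τ : Representation K G V) (σ : Representation K G U)
    (ψ : IntertwiningMap τ τ) : compR τ σ 0 ψ = 0 := by
  apply IntertwiningMap.ext
  apply LinearMap.ext
  intro v
  rfl

theorem id_ne_zero (τ : Representation K G V) [τ.IsIrreducible] :
    IntertwiningMap.id τ ≠ 0 := by
  intro h
  have h1 : ∀ v : V, v = 0 := by
    intro v
    have h2 : IntertwiningMap.id τ v = (0 : IntertwiningMap τ τ) v := by rw [h]
    exact h2
  have h3 : (⊥ : Subrepresentation τ) = ⊤ := by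
    apply Subrepresentation.toSubmodule_injective
    show (⊥ : Submodule K V) = ⊤
    rw [eq_comm, eq_bot_iff]
    intro v _
    rw [h1 v]
    exact Submodule.zero_mem _
  exact bot_ne_top h3

theorem exists_right_inv {τ : Representation K G V} [τ.IsIrreducible]
    (ψ : IntertwiningMap τ τ) (hψ : ψ ≠ 0) :
    ∃ ψ' : IntertwiningMap τ τ, ∀ v, ψ (ψ' v) = v := by
  have hinj : Function.Injective (compR τ τ ψ) := by
    rw [injective_iff_map_eq_zero]
    intro x hx
    apply IntertwiningMap.ext
    apply LinearMap.ext
    intro v
    have h1 : compR τ τ ψ x v = 0 := by rw [hx]; rfl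
    rw [compR_apply] at h1
    have h2 := injective_of_ne_zero ψ hψ
    have h3 : ψ (x v) = ψ 0 := by rw [h1, map_zero]
    exact h2 h3
  have hsurj : Function.Surjective (compR τ τ ψ) := LinearMap.injective_iff_surjective.mp hinj
  obtain ⟨ψ', hψ'⟩ := hsurj (IntertwiningMap.id τ)
  refine ⟨ψ', fun v => ?_⟩
  have h1 : compR τ τ ψ ψ' v = IntertwiningMap.id τ v := by rw [hψ']
  rw [compR_apply] at h1
  exact h1

/-- Schur: the dimension of the endomorphism algebra of an irreducible representation divides
the dimension of every space of intertwining maps out of it. -/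
theorem finrank_end_dvd (τ : Representation K G V) (σ : Representation K G U) [τ.IsIrreducible] :
    Module.finrank K (IntertwiningMap τ τ) ∣ Module.finrank K (IntertwiningMap τ σ) := by
  classical
  set e := Module.finrank K (IntertwiningMap τ τ) with he
  have key : ∀ d : ℕ, ∀ S : Submodule K (IntertwiningMap τ σ),
      (∀ h ∈ S, ∀ ψ : IntertwiningMap τ τ, compR τ σ h ψ ∈ S) → e ∣ Module.finrank K S →
      Module.finrank K (IntertwiningMap τ σ) - Module.finrank K S = d →
      e ∣ Module.finrank K (IntertwiningMap τ σ) := by
    intro d
    induction d using Nat.strong_induction_on with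
    | _ d ih =>
    intro S hstab hdvd hd
    by_cases htop : S = ⊤
    · rw [htop, finrank_top] at hdvd
      exact hdvd
    · obtain ⟨h, hh⟩ : ∃ h : IntertwiningMap τ σ, h ∉ S := by
        by_contra hcon
        push Not at hcon
        exact htop (eq_top_iff.mpr (fun x _ => hcon x))
      have hh0 : h ≠ 0 := fun h0 => hh (h0 ▸ S.zero_mem)
      have hhinj := injective_of_ne_zero h hh0
      have hcinj : Function.Injective (compR τ σ h) := by
        rw [injective_iff_map_eq_zero]
        intro x hx
        apply IntertwiningMap.ext
        apply LinearMap.ext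
        intro v
        have h1 : compR τ σ h x v = 0 := by rw [hx]; rfl
        rw [compR_apply] at h1
        have h3 : h (x v) = h 0 := by rw [h1, map_zero]
        exact hhinj h3
      set R := LinearMap.range (compR τ σ h) with hR
      have hdisj : S ⊓ R = ⊥ := by
        rw [eq_bot_iff]
        rintro x ⟨hxS, hxR⟩
        obtain ⟨ψ, rfl⟩ := hxR
        by_cases hψ : ψ = 0
        · rw [hψ, map_zero]; exact Submodule.zero_mem _
        · exfalso
          obtain ⟨ψ', hψ'⟩ := exists_right_inv ψ hψ
          apply hh
          have h1 := hstab _ hxS ψ'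
          have h2 : compR τ σ (compR τ σ h ψ) ψ' = h := by
            apply IntertwiningMap.ext
            apply LinearMap.ext
            intro v
            show h (ψ (ψ' v)) = h v
            rw [hψ']
          rw [h2] at h1
          exact h1
      have hfr : Module.finrank K R = e := LinearMap.finrank_range_of_inj hcinj
      have hsum : Module.finrank K ↥(S ⊔ R) = Module.finrank K S + e := by
        have := Submodule.finrank_sup_add_finrank_inf_eq S R
        rw [hdisj, finrank_bot, add_zero, hfr] at this
        exact this
      have hepos : 0 < e := by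
        rw [he]
        have : Nontrivial (IntertwiningMap τ τ) := ⟨⟨IntertwiningMap.id τ, 0, id_ne_zero τ⟩⟩
        exact Module.finrank_pos
      have hle : Module.finrank K ↥(S ⊔ R) ≤ Module.finrank K (IntertwiningMap τ σ) :=
        Submodule.finrank_le _
      refine ih (Module.finrank K (IntertwiningMap τ σ) - Module.finrank K ↥(S ⊔ R)) (by omega)
        (S ⊔ R) ?_ ?_ rfl
      · intro x hx ψ
        obtain ⟨s, hs, r, hr, rfl⟩ := Submodule.mem_sup.mp hx
        rw [compR_add]
        apply Submodule.add_mem
        · exact Submodule.mem_sup_left (hstab s hs ψ)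
        · apply Submodule.mem_sup_right
          obtain ⟨ψ₀, rfl⟩ := hr
          refine ⟨IntertwiningMap.comp ψ₀ ψ, ?_⟩
          rfl
      · rw [hsum]
        exact Dvd.dvd.add hdvd (dvd_refl e)
  exact key _ ⊥ (fun h hh ψ => by
    rw [Submodule.mem_bot] at hh
    rw [hh, compR_zero]
    exact Submodule.zero_mem _) (by rw [finrank_bot]; exact dvd_zero e) rfl

end division

section constituents

variable {V U : Type u} [AddCommGroup V] [Module K V] [FiniteDimensional K V]
  [AddCommGroup U] [Module K U] [FiniteDimensional K U]

theorem character_prod_K (ρ : Representation K G V) (σ : Representation K G U) :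
    (ρ.prod σ).character = ρ.character + σ.character := by
  funext g
  show LinearMap.trace K (V × U) ((ρ g).prodMap (σ g)) = _
  rw [LinearMap.trace_prodMap']
  rfl

theorem cx_prod (ρ : Representation K G V) (σ : Representation K G U) :
    cx φ (ρ.prod σ) = cx φ ρ + cx φ σ := by
  funext g
  show φ ((ρ.prod σ).character g) = φ (ρ.character g) + φ (σ.character g)
  rw [character_prod_K, Pi.add_apply, map_add]

theorem cx_equiv {ρ : Representation K G V} {σ : Representation K G U} (e : ρ.Equiv σ) :
    cx φ ρ = cx φ σ := by
  funext g
  show φ (ρ.character g) = φ (σ.character g)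
  rw [char_iso e]

theorem cx_of_subsingleton [Subsingleton V] (ρ : Representation K G V) : cx φ ρ = 0 := by
  funext g
  show φ (LinearMap.trace K V (ρ g)) = 0
  rw [Subsingleton.elim (ρ g) 0, map_zero, map_zero]

theorem pair_add_left [Fintype G] (f₁ f₂ χ : G → ℂ) :
    pair (f₁ + f₂) χ = pair f₁ χ + pair f₂ χ := by
  rw [← pairL_apply, map_add, pairL_apply, pairL_apply]

theorem pair_zero_left [Fintype G] (χ : G → ℂ) : pair (0 : G → ℂ) χ = 0 := by
  rw [← pairL_apply, map_zero]

/-- A representation over `K` whose complexified character pairs nontrivially with `χ` has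
an irreducible subquotient with the same property. -/
theorem exists_irreducible_pair_ne_zero [Fintype G] (χ : G → ℂ) :
    ∀ (n : ℕ) {U : Type u} [AddCommGroup U] [Module K U] [FiniteDimensional K U]
      (σ : Representation K G U), Module.finrank K U = n → pair (cx φ σ) χ ≠ 0 →
      ∃ (V : Type u) (_ : AddCommGroup V) (_ : Module K V) (_ : FiniteDimensional K V)
        (τ : Representation K G V), τ.IsIrreducible ∧ pair (cx φ τ) χ ≠ 0 := by
  classical
  haveI : NeZero (Nat.card G : K) := ⟨card_ne_zero_K φ⟩
  intro n
  induction n using Nat.strong_induction_on with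
  | _ n ih =>
    intro U _ _ _ σ hn hne
    by_cases hU : Module.finrank K U = 0
    · exfalso
      apply hne
      have hsub : Subsingleton U := Module.finrank_zero_iff.mp hU
      rw [cx_of_subsingleton, pair_zero_left]
    · have hnt : Nontrivial U := Module.nontrivial_of_finrank_pos (R := K) (Nat.pos_of_ne_zero hU)
      obtain ⟨S, hS⟩ := exists_irreducible_subrep σ
      obtain ⟨r, hr⟩ := exists_retraction (subrepIncl S) (subrepIncl_injective S)
      have hchar : cx φ σ = cx φ S.toRepresentation + cx φ r.ker.toRepresentation := by
        rw [← cx_equiv φ (splitEquiv (subrepIncl S) r hr), cx_prod]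
      have hfin : Module.finrank K U =
          Module.finrank K S.toSubmodule + Module.finrank K r.ker.toSubmodule := by
        rw [← (splitEquiv (subrepIncl S) r hr).toLinearEquiv.finrank_eq, Module.finrank_prod]
      have hSpos : 0 < Module.finrank K S.toSubmodule := by
        have : Nontrivial S.toSubmodule := by
          by_contra hcon
          rw [not_nontrivial_iff_subsingleton] at hcon
          have : (⊥ : Subrepresentation S.toRepresentation) = ⊤ := by
            apply Subrepresentation.toSubmodule_injective
            exact Subsingleton.elim _ _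
          exact bot_ne_top this
        exact Module.finrank_pos
      by_cases h1 : pair (cx φ S.toRepresentation) χ = 0
      · have h2 : pair (cx φ r.ker.toRepresentation) χ ≠ 0 := by
          intro h2
          apply hne
          rw [hchar, pair_add_left, h1, h2, add_zero]
        exact ih _ (by omega) r.ker.toRepresentation rfl h2
      · exact ⟨_, _, _, _, S.toRepresentation, hS, h1⟩

/-- A representation over `K` gives a complex representation by matrices with entries in
the image of `K`. -/
theorem exists_complex_rep {W : Type u} [AddCommGroup W] [Module K W] [FiniteDimensional K W]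
    (τ : Representation K G W) :
    ∃ σ : Representation ℂ G (Fin (Module.finrank K W) → ℂ), σ.character = cx φ τ ∧
      ∀ g i j, LinearMap.toMatrix' (σ g) i j ∈ Set.range φ := by
  classical
  let b := Module.finBasis K W
  let M : G → Matrix (Fin (Module.finrank K W)) (Fin (Module.finrank K W)) K :=
    fun g => LinearMap.toMatrix b b (τ g)
  have hM1 : M 1 = 1 := by
    show LinearMap.toMatrix b b (τ 1) = 1
    rw [map_one]
    exact LinearMap.toMatrix_one b
  have hMmul : ∀ g h, M (g * h) = M g * M h := by
    intro g h
    show LinearMap.toMatrix b b (τ (g * h)) = _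
    rw [map_mul]
    exact LinearMap.toMatrix_mul b (τ g) (τ h)
  let σ : Representation ℂ G (Fin (Module.finrank K W) → ℂ) :=
    { toFun := fun g => Matrix.toLin' ((M g).map φ)
      map_one' := by
        rw [hM1, Matrix.map_one _ (map_zero φ) (map_one φ), Matrix.toLin'_one]
        rfl
      map_mul' := fun g h => by
        rw [hMmul, Matrix.map_mul, Matrix.toLin'_mul]
        rfl }
  refine ⟨σ, ?_, ?_⟩
  · funext g
    show LinearMap.trace ℂ _ (Matrix.toLin' ((M g).map φ)) = φ (LinearMap.trace K W (τ g))
    rw [LinearMap.trace_eq_matrix_trace K b (τ g),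
      LinearMap.trace_eq_matrix_trace ℂ (Pi.basisFun ℂ _), LinearMap.toMatrix_eq_toMatrix',
      LinearMap.toMatrix'_toLin']
    simp only [Matrix.trace, Matrix.diag_apply, Matrix.map_apply, map_sum]
    rfl
  · intro g i j
    show LinearMap.toMatrix' (Matrix.toLin' ((M g).map φ)) i j ∈ _
    rw [LinearMap.toMatrix'_toLin']
    exact ⟨M g i j, rfl⟩

theorem isCharacter_cx {W : Type u} [AddCommGroup W] [Module K W] [FiniteDimensional K W]
    (τ : Representation K G W) : Cfsg.IsCharacter G (cx φ τ) := by
  obtain ⟨σ, hσ, -⟩ := exists_complex_rep φ τ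
  exact ⟨_, σ, hσ⟩

end constituents

section real

/-- `χ` is the complexified character of a representation over `K`. -/
def Real (χ : G → ℂ) : Prop :=
  ∃ (W : Type u) (_ : AddCommGroup W) (_ : Module K W) (_ : FiniteDimensional K W)
    (τ : Representation K G W), cx φ τ = χ

theorem Real.add {χ ψ : G → ℂ} (hχ : Real φ χ) (hψ : Real φ ψ) : Real φ (χ + ψ) := by
  obtain ⟨W, _, _, _, τ, rfl⟩ := hχ
  obtain ⟨W', _, _, _, τ', rfl⟩ := hψ
  exact ⟨W × W', inferInstance, inferInstance, inferInstance, τ.prod τ', cx_prod φ τ τ'⟩

theorem Real.zero : Real φ (0 : G → ℂ) :=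
  ⟨PUnit, inferInstance, inferInstance, inferInstance, 1, cx_of_subsingleton φ _⟩

theorem Real.nsmul {χ : G → ℂ} (hχ : Real φ χ) (n : ℕ) : Real φ (n • χ) := by
  induction n with
  | zero => rw [zero_smul]; exact Real.zero φ
  | succ n ih => rw [succ_nsmul]; exact ih.add φ hχ

theorem Real.sum {ι : Type*} (s : Finset ι) (f : ι → G → ℂ) (h : ∀ i ∈ s, Real φ (f i)) :
    Real φ (∑ i ∈ s, f i) := by
  classical
  induction s using Finset.induction_on with
  | empty => rw [Finset.sum_empty]; exact Real.zero φ
  | insert a s ha ih =>
    rw [Finset.sum_insert ha]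
    exact (h a (Finset.mem_insert_self a s)).add φ
      (ih (fun i hi => h i (Finset.mem_insert_of_mem hi)))

end real

end Cfsg.Agent.Lib.Helper71.Split
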