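import Mathlib
import Cfsg.Prelude.Def_Characters
import Cfsg.Agent.Lib.Helper3.IndFun
import Cfsg.Agent.Lib.Helper71.SplitRep

set_option autoImplicit false
set_option linter.style.haveILetI false
set_option linter.unusedSectionVars false

namespace Cfsg.Agent.Lib.Helper71.Split

open Representation Module
open Cfsg.Agent.Lib.Helper3

universe u

variable {G : Type u} [Group G]
variable {K : Type} [Field K]

section mono

variable (E : Subgroup G) (μ : E →* K)

open Classical in
/-- Extension by zero of `μ`. -/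
noncomputable def ext0 (x : G) : K := if h : x ∈ E then μ ⟨x, h⟩ else 0

theorem ext0_mem {x : G} (h : x ∈ E) : ext0 E μ x = μ ⟨x, h⟩ := by
  unfold ext0; rw [dif_pos h]

theorem ext0_not_mem {x : G} (h : x ∉ E) : ext0 E μ x = 0 := by
  unfold ext0; rw [dif_neg h]

theorem ext0_mul_left {x : G} (hx : x ∈ E) (y : G) :
    ext0 E μ (x * y) = ext0 E μ x * ext0 E μ y := by
  by_cases hy : y ∈ E
  · rw [ext0_mem E μ (E.mul_mem hx hy), ext0_mem E μ hx, ext0_mem E μ hy, ← map_mul]
    rfl
  · have : x * y ∉ E := fun h => hy ((Subgroup.mul_mem_cancel_left E hx).mp h)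
    rw [ext0_not_mem E μ this, ext0_not_mem E μ hy, mul_zero]

/-- A transversal. -/
noncomputable def tr (q : G ⧸ E) : G := Quotient.out q

theorem mk_tr (q : G ⧸ E) : ((tr E q : G) : G ⧸ E) = q := QuotientGroup.out_eq' q

variable [Fintype (G ⧸ E)] [DecidableEq (G ⧸ E)]

/-- The matrices of the monomial representation. -/
noncomputable def monoMat (g : G) : Matrix (G ⧸ E) (G ⧸ E) K :=
  Matrix.of fun i j => ext0 E μ ((tr E i)⁻¹ * g * tr E j)

theorem monoMat_one : monoMat E μ 1 = 1 := by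
  ext i j
  show ext0 E μ ((tr E i)⁻¹ * 1 * tr E j) = (1 : Matrix _ _ K) i j
  by_cases hij : i = j
  · subst hij
    rw [Matrix.one_apply_eq, mul_one, inv_mul_cancel, ext0_mem E μ E.one_mem]
    exact map_one μ
  · rw [Matrix.one_apply_ne hij]
    apply ext0_not_mem
    intro h
    apply hij
    rw [mul_one] at h
    have h2 := QuotientGroup.eq.mpr h
    rw [mk_tr, mk_tr] at h2
    exact h2

theorem monoMat_mul (g g' : G) : monoMat E μ (g * g') = monoMat E μ g * monoMat E μ g' := by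
  ext i k
  rw [Matrix.mul_apply]
  show ext0 E μ ((tr E i)⁻¹ * (g * g') * tr E k) =
    ∑ j, ext0 E μ ((tr E i)⁻¹ * g * tr E j) * ext0 E μ ((tr E j)⁻¹ * g' * tr E k)
  obtain ⟨j₀, hj₀⟩ : ∃ j₀ : G ⧸ E, j₀ = ((g⁻¹ * tr E i : G) : G ⧸ E) := ⟨_, rfl⟩
  rw [Finset.sum_eq_single j₀]
  · have ha : (tr E i)⁻¹ * g * tr E j₀ ∈ E := by
      have h1 : ((tr E j₀ : G) : G ⧸ E) = ((g⁻¹ * tr E i : G) : G ⧸ E) := by
        rw [mk_tr, hj₀]
      have h2 := QuotientGroup.eq.mp h1.symm
      have h3 : (tr E i)⁻¹ * g * tr E j₀ = (g⁻¹ * tr E i)⁻¹ * tr E j₀ := by group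
      rw [h3]
      exact h2
    have h3 : (tr E i)⁻¹ * (g * g') * tr E k =
        ((tr E i)⁻¹ * g * tr E j₀) * ((tr E j₀)⁻¹ * g' * tr E k) := by group
    rw [h3, ext0_mul_left E μ ha]
  · intro j _ hj
    have : (tr E i)⁻¹ * g * tr E j ∉ E := by
      intro h
      apply hj
      have h1 : (g⁻¹ * tr E i)⁻¹ * tr E j ∈ E := by
        have h3 : (g⁻¹ * tr E i)⁻¹ * tr E j = (tr E i)⁻¹ * g * tr E j := by group
        rw [h3]
        exact h
      have h2 := QuotientGroup.eq.mpr h1
      rw [mk_tr] at h2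
      rw [hj₀]
      exact h2.symm
    rw [ext0_not_mem E μ this, zero_mul]
  · intro h
    exact absurd (Finset.mem_univ _) h

/-- The monomial representation induced from `μ`. -/
noncomputable def monoRep : Representation K G (G ⧸ E → K) where
  toFun g := Matrix.toLin' (monoMat E μ g)
  map_one' := by
    rw [monoMat_one, Matrix.toLin'_one]
    rfl
  map_mul' g h := by
    rw [monoMat_mul, Matrix.toLin'_mul]
    rfl

theorem monoRep_character (g : G) :
    (monoRep E μ).character g = ∑ q : G ⧸ E, ext0 E μ ((tr E q)⁻¹ * g * tr E q) := by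
  show LinearMap.trace K _ (Matrix.toLin' (monoMat E μ g)) = _
  rw [LinearMap.trace_eq_matrix_trace K (Pi.basisFun K _), LinearMap.toMatrix_eq_toMatrix',
    LinearMap.toMatrix'_toLin']
  rfl

end mono

section indformula

variable [Fintype G]

/-- `G ≃ (G ⧸ E) × E` via the transversal. -/
noncomputable def cosetEquiv (E : Subgroup G) : (G ⧸ E) × E ≃ G where
  toFun p := tr E p.1 * p.2
  invFun x := ((x : G ⧸ E), ⟨(tr E (x : G ⧸ E))⁻¹ * x, QuotientGroup.eq.mp (mk_tr E (x : G ⧸ E))⟩)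
  left_inv p := by
    have h1 : ((tr E p.1 * (p.2 : G) : G) : G ⧸ E) = p.1 := by
      rw [QuotientGroup.mk_mul_of_mem _ p.2.2, mk_tr]
    apply Prod.ext
    · exact h1
    · apply Subtype.ext
      show (tr E ((tr E p.1 * (p.2 : G) : G) : G ⧸ E))⁻¹ * (tr E p.1 * p.2) = p.2
      rw [h1, inv_mul_cancel_left]
  right_inv x := by
    show tr E (x : G ⧸ E) * ((tr E (x : G ⧸ E))⁻¹ * x) = x
    rw [mul_inv_cancel_left]

theorem cosetEquiv_apply (E : Subgroup G) (q : G ⧸ E) (h : E) :
    cosetEquiv E (q, h) = tr E q * h := rfl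

theorem extendByZero_conj (E : Subgroup G) (θ : E → ℂ) (hθ : ∀ a b : E, θ (a⁻¹ * b * a) = θ b)
    (h : E) (y : G) :
    Cfsg.extendByZero E θ ((h : G)⁻¹ * y * h) = Cfsg.extendByZero E θ y := by
  by_cases hy : y ∈ E
  · have h1 : (h : G)⁻¹ * y * h ∈ E := E.mul_mem (E.mul_mem (E.inv_mem h.2) hy) h.2
    rw [extendByZero_of_mem E θ h1, extendByZero_of_mem E θ hy]
    exact hθ h ⟨y, hy⟩
  · have h1 : (h : G)⁻¹ * y * h ∉ E := by
      intro h2
      apply hy
      have h3 := E.mul_mem (E.mul_mem h.2 h2) (E.inv_mem h.2)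
      have h4 : (h : G) * ((h : G)⁻¹ * y * h) * (h : G)⁻¹ = y := by group
      rw [h4] at h3
      exact h3
    rw [extendByZero_of_not_mem E θ h1, extendByZero_of_not_mem E θ hy]

theorem indFun_eq_sum_tr (E : Subgroup G) [Fintype (G ⧸ E)] (θ : E → ℂ)
    (hθ : ∀ a b : E, θ (a⁻¹ * b * a) = θ b) (g : G) :
    Cfsg.indFun E θ g = ∑ q : G ⧸ E, Cfsg.extendByZero E θ ((tr E q)⁻¹ * g * tr E q) := by
  classical
  have : Fintype E := Fintype.ofFinite E
  unfold Cfsg.indFun
  rw [← Equiv.sum_comp (cosetEquiv E), Fintype.sum_prod_type]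
  have h1 : ∀ q : G ⧸ E,
      ∑ h : E, Cfsg.extendByZero E θ ((cosetEquiv E (q, h))⁻¹ * g * cosetEquiv E (q, h)) =
      (Nat.card E : ℂ) * Cfsg.extendByZero E θ ((tr E q)⁻¹ * g * tr E q) := by
    intro q
    have h2 : ∀ h : E,
        Cfsg.extendByZero E θ ((cosetEquiv E (q, h))⁻¹ * g * cosetEquiv E (q, h)) =
          Cfsg.extendByZero E θ ((tr E q)⁻¹ * g * tr E q) := by
      intro h
      have h3 : (cosetEquiv E (q, h))⁻¹ * g * cosetEquiv E (q, h) =
          (h : G)⁻¹ * ((tr E q)⁻¹ * g * tr E q) * h := by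
        rw [cosetEquiv_apply]
        group
      rw [h3, extendByZero_conj E θ hθ]
    simp only [h2, Finset.sum_const, Finset.card_univ, nsmul_eq_mul, Nat.card_eq_fintype_card]
  simp only [h1]
  rw [← Finset.mul_sum, ← mul_assoc, inv_mul_cancel₀, one_mul]
  exact_mod_cast Nat.card_pos.ne'

/-- A character induced from a linear character with values in the image of `K` is
afforded by a representation over `K`. -/
theorem real_indFun (φ : K →+* ℂ) (E : Subgroup G) (lam : E →* ℂˣ)
    (h : ∀ e : E, ((lam e : ℂˣ) : ℂ) ∈ Set.range φ) :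
    Real φ (Cfsg.indFun E (fun e => ((lam e : ℂˣ) : ℂ))) := by
  classical
  have : Fintype (G ⧸ E) := Fintype.ofFinite _
  choose f hf using h
  let μ : E →* K :=
    { toFun := f
      map_one' := φ.injective (by rw [hf, map_one, map_one]; rfl)
      map_mul' := fun a b => φ.injective (by rw [hf, map_mul φ, hf, hf, map_mul]; rfl) }
  refine ⟨G ⧸ E → K, inferInstance, inferInstance, inferInstance, monoRep E μ, ?_⟩
  funext g
  show φ ((monoRep E μ).character g) = _
  rw [monoRep_character, map_sum, indFun_eq_sum_tr E _ (fun a b => ?_) g]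
  · refine Finset.sum_congr rfl (fun q _ => ?_)
    by_cases hx : (tr E q)⁻¹ * g * tr E q ∈ E
    · rw [ext0_mem E μ hx, extendByZero_of_mem E _ hx]
      exact hf _
    · rw [ext0_not_mem E μ hx, extendByZero_of_not_mem E _ hx, map_zero]
  · show ((lam (a⁻¹ * b * a) : ℂˣ) : ℂ) = lam b
    rw [map_mul, map_mul, map_inv, mul_comm, ← mul_assoc, mul_inv_cancel, one_mul]

end indformula

end Cfsg.Agent.Lib.Helper71.Split
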