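import Mathlib
import Cfsg.Prelude.Def_Characters
import Cfsg.Agent.Lib.Helper71.SplitMono
import Cfsg.Agent.S0163

set_option autoImplicit false
set_option linter.style.haveILetI false
set_option linter.unusedSectionVars false

namespace Cfsg.Agent.Lib.Helper71.Split

open Representation Module
open Cfsg.Agent.Lib.Helper3

universe u

variable {G : Type u} [Group G] [Fintype G]
variable {K : Type} [Field K] (φ : K →+* ℂ)

theorem pair_list_sum {α : Type*} (l : List α) (c : α → ℂ) (f : α → G → ℂ) (ψ : G → ℂ) :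
    pair (l.map fun t => c t • f t).sum ψ = (l.map fun t => c t * pair (f t) ψ).sum := by
  induction l with
  | nil => simp [pair_zero_left]
  | cons a l ih =>
    rw [List.map_cons, List.sum_cons, List.map_cons, List.sum_cons, pair_add_left, ih]
    congr 1
    rw [← pairL_apply, map_smul, smul_eq_mul, pairL_apply]

/-- If all linear characters of subgroups take values in the image of `K`, every irreducible
character is afforded by a representation over `K`. -/
theorem irr_real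
    (hK : ∀ (E : Subgroup G) (lam : E →* ℂˣ) (e : E), ((lam e : ℂˣ) : ℂ) ∈ Set.range φ)
    (χ : G → ℂ) (hχ : Cfsg.IsIrrCharacter G χ) : Real φ χ := by
  classical
  have : Fintype (Cfsg.IrrCharacter G) := Fintype.ofFinite _
  have hχc : Cfsg.IsCharacter G χ := isCharacter_of_irr hχ
  obtain ⟨l, -, hl⟩ := Cfsg.Agent.S0163.result χ hχc
  have hreal : ∀ t ∈ l, Real φ (Cfsg.indFun t.1 (fun e => ((t.2.1 e : ℂˣ) : ℂ))) :=
    fun t _ => real_indFun φ t.1 t.2.1 (hK t.1 t.2.1)
  have hpair : ∀ ψ : G → ℂ, pair χ ψ = (l.map fun t =>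
      (t.2.2 : ℂ) * pair (Cfsg.indFun t.1 (fun e => ((t.2.1 e : ℂˣ) : ℂ))) ψ).sum := by
    intro ψ
    rw [hl]
    exact pair_list_sum l (fun t => (t.2.2 : ℂ))
      (fun t => Cfsg.indFun t.1 (fun e => ((t.2.1 e : ℂˣ) : ℂ))) ψ
  -- Step 1: some monomial term pairs nontrivially with χ
  have h1 : pair χ χ = 1 := pair_irr_self hχ
  have hex : ∃ t ∈ l, pair (Cfsg.indFun t.1 (fun e => ((t.2.1 e : ℂˣ) : ℂ))) χ ≠ 0 := by
    by_contra hcon
    push Not at hcon
    have h2 : pair χ χ = 0 := by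
      rw [hpair χ]
      apply List.sum_eq_zero
      intro x hx
      rw [List.mem_map] at hx
      obtain ⟨t, ht, rfl⟩ := hx
      rw [hcon t ht, mul_zero]
    rw [h1] at h2
    exact one_ne_zero h2
  obtain ⟨t₀, ht₀, hne₀⟩ := hex
  obtain ⟨W₀, _, _, _, σ₀, hσ₀⟩ := hreal t₀ ht₀
  rw [← hσ₀] at hne₀
  -- Step 2: an irreducible constituent over K
  obtain ⟨V, _, _, _, τ, hirr, hτ⟩ := exists_irreducible_pair_ne_zero φ χ _ σ₀ rfl hne₀
  -- Step 3: decomposition of its complexified character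
  obtain ⟨m, hm⟩ := exists_mult_of_isCharacter (isCharacter_cx φ τ)
  let χ' : Cfsg.IrrCharacter G := ⟨χ, hχ⟩
  have hmχ : pair (cx φ τ) χ = (m χ' : ℂ) := by
    rw [hm]
    exact pair_sum_irr (fun ψ => (m ψ : ℂ)) χ'
  have hmpos : 1 ≤ m χ' := by
    rcases Nat.eq_zero_or_pos (m χ') with h | h
    · exfalso
      apply hτ
      rw [hmχ, h, Nat.cast_zero]
    · exact h
  obtain ⟨N, hN⟩ : ∃ N : ℕ, N = Module.finrank K (IntertwiningMap τ τ) := ⟨_, rfl⟩
  have hNsum : N = ∑ ψ : Cfsg.IrrCharacter G, m ψ * m ψ := by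
    have h2 := pair_cx φ τ τ
    rw [← hN] at h2
    have h3 : pair (cx φ τ) (cx φ τ) = ∑ ψ : Cfsg.IrrCharacter G, (m ψ : ℂ) * (m ψ : ℂ) := by
      rw [hm]
      exact pair_sum_sum_irr (fun ψ => (m ψ : ℂ)) (fun ψ => (m ψ : ℂ))
    rw [h3] at h2
    have h4 : ((∑ ψ : Cfsg.IrrCharacter G, m ψ * m ψ : ℕ) : ℂ) = (N : ℂ) := by
      rw [← h2]
      push_cast
      rfl
    exact (Nat.cast_injective h4).symm
  -- Step 4: N divides m χ'
  have hterm : ∀ t ∈ l, ∃ k : ℤ,
      (t.2.2 : ℂ) * pair (Cfsg.indFun t.1 (fun e => ((t.2.1 e : ℂˣ) : ℂ))) (cx φ τ) =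
        (N : ℂ) * (k : ℂ) := by
    intro t ht
    obtain ⟨W, _, _, _, σ, hσ⟩ := hreal t ht
    rw [← hσ, pair_cx φ τ σ]
    obtain ⟨k, hk⟩ := finrank_end_dvd τ σ
    rw [← hN] at hk
    refine ⟨t.2.2 * k, ?_⟩
    rw [hk]
    push_cast
    ring
  have hsumdvd : ∀ l' : List ((E : Subgroup G) × ((E →* ℂˣ) × ℤ)), (∀ t ∈ l', t ∈ l) →
      ∃ z : ℤ, (l'.map fun t => (t.2.2 : ℂ) *
        pair (Cfsg.indFun t.1 (fun e => ((t.2.1 e : ℂˣ) : ℂ))) (cx φ τ)).sum =
          (N : ℂ) * (z : ℂ) := by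
    intro l'
    induction l' with
    | nil => intro _; exact ⟨0, by simp⟩
    | cons a l' ih =>
      intro hsub
      obtain ⟨z, hz⟩ := ih (fun t ht => hsub t (List.mem_cons_of_mem a ht))
      obtain ⟨k, hk⟩ := hterm a (hsub a List.mem_cons_self)
      refine ⟨k + z, ?_⟩
      rw [List.map_cons, List.sum_cons, hz, hk]
      push_cast
      ring
  obtain ⟨z, hz⟩ := hsumdvd l (fun t ht => ht)
  rw [← hpair (cx φ τ), pair_symm, hmχ] at hz
  have hdvd : N ∣ m χ' := by
    have h5 : ((m χ' : ℤ) : ℂ) = (((N : ℤ) * z : ℤ) : ℂ) := by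
      push_cast
      exact hz
    have h6 : (m χ' : ℤ) = (N : ℤ) * z := Int.cast_injective h5
    exact Int.natCast_dvd_natCast.mp ⟨z, h6⟩
  -- Step 5: conclude
  have hle1 : N ≤ m χ' := Nat.le_of_dvd hmpos hdvd
  have hle2 : m χ' * m χ' ≤ N := by
    rw [hNsum]
    exact Finset.single_le_sum (f := fun ψ => m ψ * m ψ) (fun _ _ => Nat.zero_le _)
      (Finset.mem_univ χ')
  have hm1 : m χ' = 1 := by nlinarith
  have hN1 : N = 1 := by
    rw [hm1] at hle1 hle2
    omega
  have hothers : ∀ ψ : Cfsg.IrrCharacter G, ψ ≠ χ' → m ψ = 0 := by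
    intro ψ hψ
    have h7 : ∑ ψ ∈ Finset.univ.erase χ', m ψ * m ψ = 0 := by
      have h8 := Finset.add_sum_erase Finset.univ (fun ψ => m ψ * m ψ) (Finset.mem_univ χ')
      rw [← hNsum, hN1, hm1] at h8
      omega
    have h9 := (Finset.sum_eq_zero_iff.mp h7) ψ (Finset.mem_erase.mpr ⟨hψ, Finset.mem_univ ψ⟩)
    exact mul_self_eq_zero.mp h9
  refine ⟨V, inferInstance, inferInstance, inferInstance, τ, ?_⟩
  rw [hm, Finset.sum_eq_single χ']
  · rw [hm1, Nat.cast_one, one_smul]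
  · intro ψ _ hψ
    rw [hothers ψ hψ, Nat.cast_zero, zero_smul]
  · intro h
    exact absurd (Finset.mem_univ χ') h

/-- **Splitting**: if all linear characters of subgroups take values in the image of `K`,
every complex representation is equivalent to one by matrices with entries in the image
of `K`. -/
theorem splitting
    (hK : ∀ (E : Subgroup G) (lam : E →* ℂˣ) (e : E), ((lam e : ℂˣ) : ℂ) ∈ Set.range φ)
    (n : ℕ) (ρ : Representation ℂ G (Fin n → ℂ)) :
    ∃ σ : Representation ℂ G (Fin n → ℂ), Nonempty (ρ.Equiv σ) ∧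
      ∀ g i j, LinearMap.toMatrix' (σ g) i j ∈ Set.range φ := by
  classical
  have : Fintype (Cfsg.IrrCharacter G) := Fintype.ofFinite _
  obtain ⟨m, hm⟩ := exists_mult_of_isCharacter (⟨n, ρ, rfl⟩ : Cfsg.IsCharacter G ρ.character)
  have hreal : Real φ ρ.character := by
    rw [hm]
    apply Real.sum
    intro ψ _
    rw [Nat.cast_smul_eq_nsmul]
    exact (irr_real φ hK ψ ψ.2).nsmul φ (m ψ)
  obtain ⟨W, _, _, _, τ, hτ⟩ := hreal
  obtain ⟨σ₀, hσ₀, hent⟩ := exists_complex_rep φ τ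
  have hdim : Module.finrank K W = n := by
    have h1 : σ₀.character 1 = ρ.character 1 := by rw [hσ₀, hτ]
    rw [char_one, char_one, Module.finrank_fin_fun, Module.finrank_fin_fun] at h1
    exact_mod_cast h1
  have key : ∀ (d : ℕ) (σ₁ : Representation ℂ G (Fin d → ℂ)), d = n →
      σ₁.character = ρ.character →
      (∀ g i j, LinearMap.toMatrix' (σ₁ g) i j ∈ Set.range φ) →
      ∃ σ : Representation ℂ G (Fin n → ℂ), Nonempty (ρ.Equiv σ) ∧
        ∀ g i j, LinearMap.toMatrix' (σ g) i j ∈ Set.range φ := by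
    intro d σ₁ hd hc hent₁
    subst hd
    exact ⟨σ₁, equiv_of_character_eq d ρ σ₁ (Module.finrank_fin_fun ℂ) hc.symm, hent₁⟩
  exact key _ σ₀ hdim (hσ₀.trans hτ) hent

end Cfsg.Agent.Lib.Helper71.Split
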